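import Cfsg.Agent.McLRankThree.Families

/-! The automorphisms of the graph on 275 points. -/

set_option autoImplicit false
set_option maxRecDepth 100000

namespace CfsgLib.McLRankThree

open CfsgLib.CosetEnum

/-- the automorphisms of the graph -/
noncomputable def AutG : Subgroup P where
  carrier := {g | ∀ i j, Adj (g i) (g j) ↔ Adj i j}
  one_mem' := fun _ _ => Iff.rfl
  mul_mem' := fun {a b} ha hb i j => (ha _ _).trans (hb i j)
  inv_mem' := fun {a} ha i j => by simpa using (ha (a⁻¹ i) (a⁻¹ j)).symm

theorem KK_le_AutG : KK ≤ AutG := fun _ hg i j => adj_map hg i j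

/-- a base point -/
noncomputable def bp (k : ℕ) : Pt := ptM (autBase.getD k 0)

/-- the first base points, latest first -/
noncomputable def bps (k : ℕ) : List Pt := Nat.rec [] (fun i r => bp i :: r) k

theorem mem_bps {k i : ℕ} (h : i < k) : bp i ∈ bps k := by
  induction k with
  | zero => omega
  | succ k ih =>
    rcases Nat.lt_succ_iff_lt_or_eq.1 h with h | rfl
    exacts [List.mem_cons_of_mem _ (ih h), List.mem_cons_self]

theorem class_data {k : ℕ} (hk : k < 19) : classSize k = autSize.getD k 0 ∧
    autBase.getD k 0 < 275 := by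
  have h := (Model.allBelow_iff _ _).1 class_ok.1 k hk
  simp only [Bool.and_eq_true, beq_iff_eq, Nat.blt, Nat.ble_eq, Nat.beq_eq] at h
  exact ⟨h.1, h.2⟩

theorem pat_inv {k : ℕ} (hk : k ≤ 19) {g : P} (hg : g ∈ pointStab AutG (bps k)) (x : Pt) :
    patN k (g x : Pt) = patN k x := by
  obtain ⟨hA, hfix⟩ := mem_pointStab.1 hg
  induction k with
  | zero => rfl
  | succ k ih =>
    obtain ⟨-, hlt⟩ := class_data (show k < 19 by omega)
    have hb : g (bp k) = bp k := hfix _ (mem_bps (Nat.lt_succ_self k))
    have hsub : g ∈ pointStab AutG (bps k) :=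
      mem_pointStab.2 ⟨hA, fun p hp => hfix p (List.mem_cons_of_mem _ hp)⟩
    have ih' := ih (by omega) hsub (fun p hp => hfix p (List.mem_cons_of_mem _ hp))
    show 4 * patN k (g x : Pt) + _ + _ = 4 * patN k x + _ + _
    have e1 : Nat.beq ((g x : Pt) : ℕ) (autBase.getD k 0) =
        Nat.beq (x : Pt) (autBase.getD k 0) := by
      rw [Bool.eq_iff_iff, Nat.beq_eq, Nat.beq_eq, ← ptM_val hlt, ← Fin.ext_iff, ← Fin.ext_iff]
      change g x = bp k ↔ x = bp k
      exact ⟨fun h => g.injective (h.trans hb.symm), fun h => h ▸ hb⟩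
    have e2 : bitN (nbMask (autBase.getD k 0)) (g x : Pt) =
        bitN (nbMask (autBase.getD k 0)) (x : Pt) := by
      rw [Bool.eq_iff_iff, ← ptM_val hlt]
      change Adj (bp k) (g x) ↔ Adj (bp k) x
      conv_lhs => rw [← hb]
      exact hA _ _
    rw [ih', e1, e2]

theorem patN_top_inj {x y : Pt} (h : patN 19 x = patN 19 y) : x = y := by
  have hs := fun j (hj : j < 275) => (Model.allBelow_iff _ _).1 sort_ok j hj
  simp only [sortOK, Bool.and_eq_true, Bool.or_eq_true, beq_iff_eq, Nat.blt, Nat.ble_eq] at hs
  have hmono : ∀ d a, a + d < 275 →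
      patN 19 (slot sortTab 9 a) ≤ patN 19 (slot sortTab 9 (a + d)) ∧
        (0 < d → patN 19 (slot sortTab 9 a) < patN 19 (slot sortTab 9 (a + d))) := by
    intro d
    induction d with
    | zero => exact fun a _ => ⟨le_rfl, fun h => absurd h (lt_irrefl _)⟩
    | succ d ih =>
      intro a hlt
      obtain ⟨h1, -⟩ := ih a (by omega)
      have h2 := (hs (a + (d + 1)) hlt).2.resolve_left (by omega)
      rw [show a + (d + 1) - 1 = a + d by omega] at h2
      exact ⟨h1.trans (Nat.le_of_lt h2), fun _ => lt_of_le_of_lt h1 h2⟩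
  have hx := (hs x x.2).1
  have hy := (hs y y.2).1
  rw [← hx.2, ← hy.2] at h
  apply Fin.ext
  rw [← hx.2, ← hy.2]
  rcases lt_trichotomy (slot rankTab 9 x) (slot rankTab 9 y) with hl | he | hl
  · have := (hmono (slot rankTab 9 y - slot rankTab 9 x) (slot rankTab 9 x) (by omega)).2
      (by omega)
    rw [show slot rankTab 9 x + (slot rankTab 9 y - slot rankTab 9 x) = slot rankTab 9 y by
      omega, h] at this
    exact absurd this (lt_irrefl _)
  · rw [he]
  · have := (hmono (slot rankTab 9 x - slot rankTab 9 y) (slot rankTab 9 y) (by omega)).2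
      (by omega)
    rw [show slot rankTab 9 y + (slot rankTab 9 x - slot rankTab 9 y) = slot rankTab 9 x by
      omega, h] at this
    exact absurd this (lt_irrefl _)

theorem classSize_eq (k : ℕ) : classSize k =
    ((Finset.range 275).filter fun x => patN k x = patN k (autBase.getD k 0)).card := by
  unfold classSize cnt
  generalize patN k (autBase.getD k 0) = v
  induction 275 with
  | zero => rfl
  | succ n ih =>
    rw [Finset.range_add_one, Finset.filter_insert]
    cases hb : Nat.beq (patN k n) v
    · have hne : ¬ patN k n = v := fun e => by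
        rw [e, Nat.beq_refl] at hb; exact Bool.noConfusion hb
      simp only [hb, if_neg hne]
      exact ih
    · simp only [hb, if_pos (Nat.eq_of_beq_eq_true hb)]
      rw [Finset.card_insert_of_notMem (by simp)]
      exact congrArg (· + 1) ih

theorem card_AutG_le : Nat.card AutG ≤ 1796256000 := by
  classical
  have step : ∀ k ≤ 19, Nat.card AutG ≤
      ((List.range k).map fun i => autSize.getD i 0).prod *
        Nat.card (pointStab AutG (bps k)) := by
    intro k
    induction k with
    | zero => intro _; simp [bps, pointStab]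
    | succ k ih =>
      intro hk
      obtain ⟨hsz, hlt⟩ := class_data (show k < 19 by omega)
      refine (ih (by omega)).trans ?_
      rw [List.range_succ, List.map_append, List.prod_append, List.map_singleton,
        List.prod_singleton, mul_assoc]
      refine Nat.mul_le_mul_left _ ?_
      have horb : (MulAction.orbit (pointStab AutG (bps k)) (bp k)).ncard ≤ autSize.getD k 0 := by
        rw [← hsz, classSize_eq, ← Set.ncard_coe_finset]
        refine Set.ncard_le_ncard_of_injOn (fun i : Pt => (i : ℕ)) ?_ ?_ (Finset.finite_toSet _)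
        · rintro _ ⟨⟨g, hg⟩, rfl⟩
          refine Finset.mem_coe.2 (Finset.mem_filter.2 ⟨Finset.mem_range.2 (g (bp k) : Pt).2, ?_⟩)
          show patN k (g (bp k) : Pt) = _
          rw [pat_inv (by omega) hg, bp, ptM_val hlt]
        · exact fun a _ b _ h => Fin.ext h
      rw [← card_pointStab_eq AutG (bps k) (bp k)]
      exact Nat.mul_le_mul_right _ horb
  have htriv : pointStab AutG (bps 19) = ⊥ := by
    rw [eq_bot_iff]
    intro g hg
    exact Subgroup.mem_bot.2 (Equiv.ext fun x => patN_top_inj (pat_inv le_rfl hg x))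
  have h := step 19 le_rfl
  rw [htriv, class_ok.2, Subgroup.card_bot, mul_one] at h
  exact h

/-- A group of automorphisms of the graph of the order of the McLaughlin group is that group. -/
theorem eq_KK {G' : Subgroup P} (hle : G' ≤ AutG) (hc : Nat.card G' = 898128000) :
    G' = KK := by
  have hS := KK_le_AutG
  have hsimple : IsSimpleGroup KK := McLCover.isSimpleGroup_K
  set A := AutG
  have h1 : G'.relIndex A ≤ 2 ∧ G'.relIndex A ≠ 0 := by
    have h := Subgroup.relIndex_mul_relIndex ⊥ G' A bot_le hle
    rw [Subgroup.relIndex_bot_left, Subgroup.relIndex_bot_left, hc] at h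
    have hb : 898128000 * G'.relIndex A ≤ 1796256000 := h.le.trans card_AutG_le
    refine ⟨by omega, fun h0 => ?_⟩
    rw [h0, mul_zero] at h
    exact absurd h.symm Nat.card_pos.ne'
  have h2 : G'.relIndex KK ≤ 2 :=
    (Subgroup.relIndex_le_of_le_right hS h1.2).trans h1.1
  have h3 : G'.relIndex KK ≠ 0 := Subgroup.index_ne_zero_of_finite
  have hnormal : (G'.subgroupOf KK).Normal := by
    change (G'.subgroupOf KK).index ≤ 2 at h2
    change (G'.subgroupOf KK).index ≠ 0 at h3
    rcases (show (G'.subgroupOf KK).index = 1 ∨ (G'.subgroupOf KK).index = 2 by omega)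
      with h | h
    · rw [Subgroup.index_eq_one.1 h]; infer_instance
    · exact Subgroup.normal_of_index_eq_two h
  rcases IsSimpleGroup.eq_bot_or_eq_top_of_normal _ hnormal with h | h
  · exfalso
    change (G'.subgroupOf KK).index ≤ 2 at h2
    rw [h, Subgroup.index_bot, McLCover.card_K] at h2
    omega
  · rw [Subgroup.subgroupOf_eq_top] at h
    exact (Subgroup.eq_of_le_of_card_ge h (by rw [hc, McLCover.card_K])).symm

end CfsgLib.McLRankThree
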