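import Cfsg.Agent.McLRankThree.Parts
import Cfsg.Agent.U43Mult.DataGroup

/-! The computations on the certificate. -/

set_option autoImplicit false
set_option maxRecDepth 100000

namespace CfsgLib.McLRankThree

open CfsgLib.CosetEnum

/-- the neighbourhood of a point as a mask -/
noncomputable def nbMask (i : ℕ) : ℕ := adjRows.getD i 0

/-- a point lies in a mask -/
noncomputable def bitN (m j : ℕ) : Bool := Nat.beq ((m >>> j) % 2) 1

/-- the size of a set of points -/
noncomputable def cnt (f : ℕ → Bool) : ℕ :=
  Nat.rec 0 (fun j r => Bool.rec r (r + 1) (f j)) 275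

/-- the neighbourhood of a point is moved to the suborbit -/
noncomputable def moveOK (i : ℕ) : Bool :=
  let t := moveWords.getD i []
  let m := nbMask i
  okW t && (actN t i == 2) && allBelow (fun j => bitN m j == (lab (actN t j) == 1)) 275

/-- a line has four adjacent points with no other common neighbours inside -/
noncomputable def lineOK (l : List ℕ) : Bool :=
  (l.length == 4) &&
    allBelow (fun a => Nat.blt (l.getD a 0) 275 && bitN maskOne (l.getD a 0) &&
      allBelow (fun b => (a == b) ||
        (bitN (nbMask (l.getD a 0)) (l.getD b 0) && !(l.getD a 0 == l.getD b 0) &&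
          (cnt (fun j => bitN (Nat.land (Nat.land (nbMask (l.getD a 0)) (nbMask (l.getD b 0)))
            maskOne) j) == 2))) 4) 4

/-- an automorphism of the suborbit normalises the stabiliser and fits a family to a point -/
noncomputable def sigmaOK (f : ℕ) : Bool :=
  let T := sigmaTabs.getD f 0
  let S := sigmaInvTabs.getD f 0
  let w := sigmaPts.getD f 0
  allBelow (fun i => Nat.blt (slot T 9 i) 275 && Nat.blt (slot S 9 i) 275 &&
      (slot S 9 (slot T 9 i) == i) && (slot T 9 (slot S 9 i) == i) &&
      (bitN maskOne i == bitN maskOne (slot T 9 i))) 275 &&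
    allBelow (fun i => !bitN maskOne i || allBelow (fun j => !bitN maskOne j ||
      (bitN (nbMask i) j == bitN (nbMask (slot T 9 i)) (slot T 9 j))) 275) 275 &&
    allBelow (fun v => okW ((sigmaWords.getD f []).getD v []) &&
      (actN ((sigmaWords.getD f []).getD v []) 2 == 2) &&
      allBelow (fun i => !bitN maskOne i ||
        (slot T 9 (actN (unitWords.getD v []) i) ==
          actN ((sigmaWords.getD f []).getD v []) (slot T 9 i))) 275) 6 &&
    Nat.blt w 275 && (lab w == 2) &&
    allBelow (fun i => !bitN maskOne i ||
      (bitN (famReps.getD f 0) i == bitN (nbMask w) (slot T 9 i))) 275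

/-- one generator of the Sylow subgroup -/
noncomputable def sylOK (i : ℕ) : Bool :=
  let u := sylWords.getD i []
  let e := sylWords.take i
  let c := sylConj.getD i []
  okW u && (actN u 2 == 2) && (actN u qPt == qPt) &&
    eqB (u ++ u ++ u ++ u ++ u ++ u ++ u ++ u ++ u) [] && (c.length == i) &&
    allBelow (fun j => eqB (u ++ sylWords.getD j [] ++ u.reverse) (flat e (c.getD j []))) i

/-- the pattern of a point relative to the first `k` base points -/
noncomputable def patN (k x : ℕ) : ℕ :=
  Nat.rec 0 (fun i r => 4 * r + (cond (Nat.beq x (autBase.getD i 0)) 1 0) +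
    (cond (bitN (nbMask (autBase.getD i 0)) x) 2 0)) k

/-- the number of points with the pattern of base point `k` -/
noncomputable def classSize (k : ℕ) : ℕ :=
  cnt (fun x => Nat.beq (patN k x) (patN k (autBase.getD k 0)))

/-- position `j` of the sorted list -/
noncomputable def sortOK (j : ℕ) : Bool :=
  Nat.blt (slot rankTab 9 j) 275 && (slot sortTab 9 (slot rankTab 9 j) == j) &&
    ((j == 0) || Nat.blt (patN 19 (slot sortTab 9 (j - 1))) (patN 19 (slot sortTab 9 j)))

theorem move_ok : allBelow moveOK 275 = true := by decide +kernel

theorem mask_one : allBelow (fun j => bitN maskOne j == (lab j == 1)) 275 = true := by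
  decide +kernel

theorem lab_split : allBelow (fun j => ((lab j == 0) && (j == 2)) || (lab j == 1) || (lab j == 2))
    275 = true ∧ cnt (fun j => lab j == 1) = 112 ∧ cnt (fun j => lab j == 2) = 162 ∧
    lab 2 = 0 ∧ lab qPt = 1 ∧ lab wPt = 2 ∧ qPt < 275 ∧ wPt < 275 := by
  decide +kernel

theorem stab_words_ok : allK (fun w => okW w && (actN w 2 == 2))
    (stabWords ++ unitWords ++ sylWords ++ qWords ++ wWords) = true := by decide +kernel

theorem unit_rels : allK (fun r => eqB (flat unitWords r) []) U43Mult.rels = true ∧
    unitWords.length = 6 ∧ eqB (unitWords.getD 0 []) [] = false := by decide +kernel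

theorem fix_q : allK (fun w => actN w qPt == qPt) qWords = true := by decide +kernel

theorem fix_w : allK (fun w => actN w wPt == wPt) wWords = true := by decide +kernel

theorem certs_ok : certOne.allOK 1 stabWords = true ∧ certTwo.allOK 2 stabWords = true ∧
    certS.allOK 1 sylWords = true ∧ certQ.allOK 1 qWords = true ∧
    certW.allOK 2 wWords = true := by decide +kernel

theorem syl_ok : sylWords.length = 6 ∧ allBelow sylOK 6 = true := by decide +kernel

theorem line_ok : allK lineOK lines = true := by decide +kernel

theorem half_distinct : allBelow (fun i => !(lab i == 2) || allBelow (fun j => !(lab j == 2) ||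
    !(Nat.land (nbMask i) maskOne == Nat.land (nbMask j) maskOne) || (i == j)) 275) 275 = true := by
  decide +kernel

theorem sigma_ok : allBelow sigmaOK 4 = true := by decide +kernel

theorem class_ok : allBelow (fun k => Nat.beq (classSize k) (autSize.getD k 0) &&
    Nat.blt (autBase.getD k 0) 275) 19 = true ∧
    ((List.range 19).map fun k => autSize.getD k 0).prod = 1796256000 := by decide +kernel

theorem sort_ok : allBelow sortOK 275 = true := by decide +kernel

end CfsgLib.McLRankThree
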