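import Cfsg.Agent.McLRankThree.Setting

/-! The smaller suborbit as a graph, and the half set of a point in the larger suborbit. -/

set_option autoImplicit false
set_option maxRecDepth 100000

namespace CfsgLib.McLRankThree

open CfsgLib.CosetEnum

/-- the neighbours of the base point in the suborbit -/
noncomputable def labQ (i : ℕ) : Bool := (lab i == 1) && bitN (nbMask qPt) i

/-- the neighbours of the point of the larger suborbit in that suborbit -/
noncomputable def labW (i : ℕ) : Bool := (lab i == 2) && bitN (nbMask wPt) i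

theorem masks_unique :
    cnt labQ = 30 ∧ cnt labW = 56 ∧
    allBelow (fun m => m.testBit (certQ.part (certQ.pos qPt)) || Nat.beq (certQ.count m) 0 ||
      Nat.beq (certQ.count m) 30 || Nat.beq (certQ.count m) 81 || Nat.beq (certQ.count m) 111)
      (2 ^ certQ.parts) = true ∧
    allBelow (fun m => allBelow (fun k => !(certQ.count m == 30) || !(certQ.count k == 30) ||
      (m == k)) (2 ^ certQ.parts)) (2 ^ certQ.parts) = true ∧
    allBelow (fun m => allBelow (fun k => !(certW.count m == 56) || !(certW.count k == 56) ||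
      (m == k)) (2 ^ certW.parts)) (2 ^ certW.parts) = true := by
  decide +kernel

theorem labQ_iff {i : Pt} : labQ i = true ↔ lab i = 1 ∧ Adj Q0 i := by
  rw [labQ, Bool.and_eq_true, beq_iff_eq, Adj, Q0_val]

theorem labW_iff {i : Pt} : labW i = true ↔ lab i = 2 ∧ Adj W0 i := by
  rw [labW, Bool.and_eq_true, beq_iff_eq, Adj, W0_val]

namespace Setting

variable {Ω : Type*} [Fintype Ω] [DecidableEq Ω] (S : Setting Ω)

theorem orb_invariant {x : Ω} (g : ↥S.Ga) (v : Ω) :
    (g : Equiv.Perm Ω) v ∈ S.orb x ↔ v ∈ S.orb x := by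
  constructor
  · intro h
    obtain ⟨k, hk⟩ := MulAction.mem_orbit_iff.1 h
    exact MulAction.mem_orbit_iff.2 ⟨g⁻¹ * k, by rw [mul_smul, hk]; exact inv_smul_smul g v⟩
  · intro h
    obtain ⟨k, hk⟩ := h
    exact ⟨g * k, by rw [← hk]; rfl⟩

theorem fix_a (g : ↥S.Ga) : (g : Equiv.Perm Ω) S.a = S.a := (S.mem_Ga.1 g.2).2

theorem not_a_b : S.a ∉ S.orb S.b := fun h => S.R_irrefl _ ((S.R_base _).2 h)

theorem disjoint_orbs : Disjoint (S.orb S.b) (S.orb S.c) := Set.disjoint_left.2 fun v h1 h2 => by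
  have e : (S.orb S.b).ncard = (S.orb S.c).ncard := by
    rw [orb, orb, ← MulAction.orbit_eq_iff.2 h1, ← MulAction.orbit_eq_iff.2 h2]
  rw [orb, orb, S.hb, S.hc] at e
  omega

theorem not_a_c : S.a ∉ S.orb S.c := fun h => by
  have hc : (S.orb S.c).ncard = 162 := S.hc
  rw [show S.orb S.c = S.orb S.a from (MulAction.orbit_eq_iff.2 h).symm] at hc
  have : S.orb S.a = {S.a} := Set.eq_singleton_iff_unique_mem.2
    ⟨MulAction.mem_orbit_self _, fun y ⟨g, hg⟩ => hg ▸ S.fix_a g⟩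
  rw [this, Set.ncard_singleton] at hc
  omega

/-- the neighbours of `u` in the orbit of `x` -/
def nb (u x : Ω) : Set Ω := {v | v ∈ S.orb x ∧ S.R u v}

theorem nb_map (g : ↥S.Ga) (u x : Ω) :
    S.nb ((g : Equiv.Perm Ω) u) x = (g : Equiv.Perm Ω) '' S.nb u x := by
  ext v
  obtain ⟨w, rfl⟩ := (g : Equiv.Perm Ω).surjective v
  rw [(g : Equiv.Perm Ω).injective.mem_set_image]
  exact and_congr (S.orb_invariant g w) (S.R_Ga g u w)

theorem ncard_nb_map (g : ↥S.Ga) (u x : Ω) :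
    (S.nb ((g : Equiv.Perm Ω) u) x).ncard = (S.nb u x).ncard := by
  rw [S.nb_map, Set.ncard_image_of_injective _ (g : Equiv.Perm Ω).injective]

theorem nbrs_split (u : Ω) :
    {v | S.R u v} = {v | v = S.a ∧ S.R u v} ∪ S.nb u S.b ∪ S.nb u S.c := by
  ext v
  constructor
  · intro h
    rcases S.trichotomy v with hv | hv | hv
    exacts [Or.inl (Or.inl ⟨hv, h⟩), Or.inl (Or.inr ⟨hv, h⟩), Or.inr ⟨hv, h⟩]
  · rintro ((h | h) | h) <;> exact h.2

theorem ncard_split (u : Ω) :
    {v | v = S.a ∧ S.R u v}.ncard + (S.nb u S.b).ncard + (S.nb u S.c).ncard = 112 := by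
  rw [← S.ncard_nbrs u, S.nbrs_split u, Set.ncard_union_eq, Set.ncard_union_eq]
  · exact Set.disjoint_left.2 fun v h1 h2 => S.not_a_b (h1.1 ▸ h2.1)
  · refine Set.disjoint_left.2 fun v h1 h2 => ?_
    rcases h1 with h1 | h1
    · exact S.not_a_c (h1.1 ▸ h2.1)
    · exact Set.disjoint_left.1 S.disjoint_orbs h1.1 h2.1

theorem ncard_a_b : {v | v = S.a ∧ S.R S.b v}.ncard = 1 := by
  rw [Set.ncard_eq_one]
  refine ⟨S.a, Set.ext fun v => ⟨fun h => h.1, fun h => ?_⟩⟩
  rw [Set.mem_singleton_iff] at h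
  exact ⟨h, h ▸ S.R_symm.1 ((S.R_base _).2 (MulAction.mem_orbit_self _))⟩

theorem double_count :
    112 * (S.nb S.b S.c).ncard = 162 * (S.nb S.c S.b).ncard := by
  classical
  set D1 : Finset Ω := (S.orb S.b).toFinset
  set D2 : Finset Ω := (S.orb S.c).toFinset
  have hD1 : D1.card = 112 := by rw [← Set.ncard_eq_toFinset_card']; exact S.hb
  have hD2 : D2.card = 162 := by rw [← Set.ncard_eq_toFinset_card']; exact S.hc
  have hrow : ∀ u ∈ D1, (D2.filter fun v => S.R u v).card = (S.nb S.b S.c).ncard := by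
    intro u hu
    obtain ⟨g, rfl⟩ := S.mem_orb.1 (Set.mem_toFinset.1 hu)
    rw [← S.ncard_nb_map g, ← Set.ncard_coe_finset]
    congr 1
    ext v
    simp [D2, nb]
  have hcol : ∀ v ∈ D2, (D1.filter fun u => S.R u v).card = (S.nb S.c S.b).ncard := by
    intro v hv
    obtain ⟨g, rfl⟩ := S.mem_orb.1 (Set.mem_toFinset.1 hv)
    rw [← S.ncard_nb_map g, ← Set.ncard_coe_finset]
    congr 1
    ext u
    simp only [Finset.coe_filter, D1, Set.mem_toFinset, Set.mem_ofPred_eq, nb]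
    exact and_congr_right fun _ => S.R_symm
  have e := Finset.sum_card_bipartiteAbove_eq_sum_card_bipartiteBelow
    (r := fun u v => S.R u v) (s := D1) (t := D2)
  simp only [Finset.bipartiteAbove, Finset.bipartiteBelow] at e
  rw [Finset.sum_congr rfl hrow, Finset.sum_congr rfl hcol] at e
  simpa [hD1, hD2] using e

theorem image_invariant {x y : Ω} {f : Ω → Pt}
    (hf : ∀ g : ↥S.Ga, ∀ v ∈ S.orb x, f ((g : Equiv.Perm Ω) v) = S.th g (f v)) :
    ∀ h ∈ S.img y, ∀ i, h i ∈ f '' S.nb y x ↔ i ∈ f '' S.nb y x := by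
  have key : ∀ h ∈ S.img y, ∀ i, i ∈ f '' S.nb y x → h i ∈ f '' S.nb y x := by
    rintro h hh _ ⟨v, hv, rfl⟩
    obtain ⟨g, hg, rfl⟩ := S.mem_img.1 hh
    refine ⟨(g : Equiv.Perm Ω) v, ?_, hf g v hv.1⟩
    have : (g : Equiv.Perm Ω) v ∈ (g : Equiv.Perm Ω) '' S.nb y x := ⟨v, hv, rfl⟩
    rwa [← S.nb_map, hg] at this
  intro h hh i
  refine ⟨fun hi => ?_, key h hh i⟩
  simpa using key h⁻¹ (inv_mem hh) _ hi

/-- a chart of the smaller suborbit -/
structure Chart (f : Ω → Pt) : Prop where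
  equiv : ∀ g : ↥S.Ga, ∀ v ∈ S.orb S.b, f ((g : Equiv.Perm Ω) v) = S.th g (f v)
  inj : Set.InjOn f (S.orb S.b)
  lab_eq : ∀ v ∈ S.orb S.b, lab (f v : Pt) = 1
  adj : ∀ u ∈ S.orb S.b, ∀ v ∈ S.orb S.b, (S.R u v ↔ Adj (f u) (f v))

theorem Chart.surj {S : Setting Ω} {f : Ω → Pt} (h : S.Chart f) {i : Pt} (hi : lab i = 1) :
    ∃ v ∈ S.orb S.b, f v = i := by
  have e : f '' S.orb S.b = {i : Pt | lab i = 1} := by
    refine Set.eq_of_subset_of_ncard_le ?_ ?_
    · rintro _ ⟨v, hv, rfl⟩; exact h.lab_eq v hv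
    · rw [ncard_lab1, Set.ncard_image_of_injOn h.inj]; exact (S.hb).ge
  exact (Set.ext_iff.1 e i).2 hi

/-- the parameters at the smaller suborbit -/
theorem exists_chart_one (hS : S.img S.b = PQ0) :
    (∃ f, S.Chart f ∧ f S.b = Q0) ∧ (S.nb S.b S.b).ncard = 30 := by
  classical
  have hq : ∀ g : ↥S.Ga, S.th g Q0 = Q0 ↔ (g : Equiv.Perm Ω) S.b = S.b := fun g => by
    have := S.fix_iff_of_img (x := S.b) (m := 1) (K := PQ0) (q := Q0) (one_mem MM)
      (by rw [hS, cj_one]) (fun k => Iff.rfl) g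
    simpa using this
  obtain ⟨f, hf⟩ := S.exists_map hq
  have heq : ∀ g : ↥S.Ga, ∀ v ∈ S.orb S.b, f ((g : Equiv.Perm Ω) v) = S.th g (f v) := by
    intro g v hv
    obtain ⟨k, rfl⟩ := S.mem_orb.1 hv
    rw [hf k, ← Equiv.Perm.mul_apply, ← Equiv.Perm.mul_apply, ← map_mul, ← hf (g * k)]
    rfl
  have hinj : Set.InjOn f (S.orb S.b) := by
    intro u hu v hv e
    obtain ⟨g, rfl⟩ := S.mem_orb.1 hu
    obtain ⟨k, rfl⟩ := S.mem_orb.1 hv
    rw [hf, hf] at e
    exact (S.th_eq_iff hq g k).1 e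
  have hfb : f S.b = Q0 := by simpa using hf 1
  have hlab : ∀ v ∈ S.orb S.b, lab (f v : Pt) = 1 := by
    intro v hv
    obtain ⟨g, rfl⟩ := S.mem_orb.1 hv
    rw [hf, lab_of_mem (S.th_mem g), lab_Q0]
  set Y : Set Pt := f '' S.nb S.b S.b
  have hYn : Y.ncard = (S.nb S.b S.b).ncard :=
    Set.ncard_image_of_injOn (hinj.mono fun v hv => hv.1)
  have hYl : ∀ i ∈ Y, lab i = 1 := by rintro _ ⟨v, hv, rfl⟩; exact hlab v hv.1
  have hYinv := S.image_invariant (x := S.b) (y := S.b) heq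
  rw [hS] at hYinv
  obtain ⟨m, hm, hY, hmc⟩ := certQ.exists_mask certs_ok.2.2.2.1 (fun w hw => (qWords_mem hw).2)
    Y hYl (fun w hw => hYinv _ (qWords_mem hw).1)
  have hnq : m.testBit (certQ.part (certQ.pos qPt)) = false := by
    rw [Bool.eq_false_iff]
    intro hb
    obtain ⟨v, hv, e⟩ := (hY Q0).2 ⟨lab_Q0, by rw [Q0_val]; exact hb⟩
    rw [← hfb] at e
    rw [hinj hv.1 (MulAction.mem_orbit_self _) e] at hv
    exact S.R_irrefl _ hv.2
  obtain ⟨hcq, -, hsz, huq, -⟩ := masks_unique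
  have hsz' := (Model.allBelow_iff _ _).1 hsz m hm
  simp only [hnq, Bool.false_or, Bool.or_eq_true, Nat.beq_eq, ← hmc, hYn] at hsz'
  have hsplit := S.ncard_split S.b
  rw [S.ncard_a_b] at hsplit
  have hdc := S.double_count
  have h30 : (S.nb S.b S.b).ncard = 30 := by
    rcases hsz' with ((h | h) | h) | h
    · omega
    · exact h
    · omega
    · exfalso
      have hW : S.nb S.b S.c = ∅ := (Set.ncard_eq_zero (Set.toFinite _)).1 (by omega)
      have hclique : ∀ {v}, S.R S.b v → v = S.a ∨ v ∈ S.orb S.b := fun {v} hv => by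
        have : v ∈ {v | v = S.a ∧ S.R S.b v} ∪ S.nb S.b S.b ∪ S.nb S.b S.c := by
          rw [← S.nbrs_split]; exact hv
        rw [hW, Set.union_empty] at this
        rcases this with h | h
        exacts [Or.inl h.1, Or.inr h.1]
      have hbase : ∀ u v, S.R S.a u → S.R u v → v = S.a ∨ S.R S.a v := by
        intro u v hu huv
        obtain ⟨g, rfl⟩ := S.mem_orb.1 ((S.R_base u).1 hu)
        have h1 : S.R S.b ((g : Equiv.Perm Ω)⁻¹ v) := by rw [← S.R_Ga g]; simpa using huv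
        rcases hclique h1 with h | h
        · left
          rw [← S.fix_a g, ← h]; simp
        · right
          rw [S.R_base, ← S.orb_invariant g⁻¹]
          exact h
      let E : Setoid Ω := ⟨fun u v => u = v ∨ S.R u v, ⟨fun u => Or.inl rfl,
        fun {u v} h => h.elim (fun h => Or.inl h.symm) fun h => Or.inr (S.R_symm.1 h),
        fun {u v w} h1 h2 => by
          rcases h1 with rfl | h1
          · exact h2
          rcases h2 with rfl | h2
          · exact Or.inr h1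
          obtain ⟨g, hg, rfl⟩ := S.trans S.a u
          have e1 : S.R S.a (g⁻¹ v) := by rw [← S.R_map hg]; simpa using h1
          have e2 : S.R (g⁻¹ v) (g⁻¹ w) := by rw [← S.R_map hg]; simpa using h2
          rcases hbase _ _ e1 e2 with h | h
          · left
            rw [← h]; simp
          · right
            rw [← S.R_map hg] at h
            simpa using h⟩⟩
      have hfib : ∀ q ∈ (Finset.univ : Finset Ω).image (Quotient.mk E),
          ((Finset.univ : Finset Ω).filter fun v => Quotient.mk E v = q).card = 113 := by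
        intro q hq'
        obtain ⟨u, -, rfl⟩ := Finset.mem_image.1 hq'
        rw [← Set.ncard_coe_finset]
        have : (↑((Finset.univ : Finset Ω).filter fun v => Quotient.mk E v = Quotient.mk E u) : Set Ω) =
            insert u {v | S.R u v} := by
          ext v
          simp only [Finset.coe_filter, Finset.mem_univ, true_and, Set.mem_ofPred_eq,
            Set.mem_insert_iff, Quotient.eq]
          constructor
          · rintro (rfl | h)
            exacts [Or.inl rfl, Or.inr (S.R_symm.1 h)]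
          · rintro (rfl | h)
            exacts [Or.inl rfl, Or.inr (S.R_symm.1 h)]
        rw [this, Set.ncard_insert_of_notMem (show u ∉ {v | S.R u v} from S.R_irrefl u),
          S.ncard_nbrs]
      have := Finset.card_eq_sum_card_image (Quotient.mk E) (Finset.univ : Finset Ω)
      rw [Finset.sum_congr rfl hfib, Finset.card_univ, S.card_univ, Finset.sum_const,
        smul_eq_mul] at this
      omega
  -- the neighbours of the base point
  set Z : Set Pt := {i | labQ i = true}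
  have hZn : Z.ncard = 30 := by rw [ncard_cnt]; exact hcq
  obtain ⟨m', hm', hZ, hmc'⟩ := certQ.exists_mask certs_ok.2.2.2.1 (fun w hw => (qWords_mem hw).2)
    Z (fun i hi => (labQ_iff.1 hi).1) (fun w hw i => by
      obtain ⟨hM, hfix⟩ := (qWords_mem hw).1
      show labQ _ = true ↔ labQ _ = true
      rw [labQ_iff, labQ_iff, lab_of_mem hM]
      refine and_congr_right fun _ => ?_
      conv_lhs => rw [← show el w Q0 = Q0 from hfix]
      exact adj_map hM.1 _ _)
  have hmm : m = m' := by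
    have := (Model.allBelow_iff _ _).1 ((Model.allBelow_iff _ _).1 huq m hm) m' hm'
    simpa [← hmc, ← hmc', hYn, h30, hZn] using this
  have hbase : ∀ v ∈ S.orb S.b, (S.R S.b v ↔ Adj Q0 (f v)) := by
    intro v hv
    have h1 : f v ∈ Y ↔ S.R S.b v :=
      ⟨fun ⟨u, hu, e⟩ => hinj hu.1 hv e ▸ hu.2, fun h => ⟨v, ⟨hv, h⟩, rfl⟩⟩
    have h2 : f v ∈ Z ↔ Adj Q0 (f v) := labQ_iff.trans ⟨fun h => h.2, fun h => ⟨hlab v hv, h⟩⟩
    rw [← h1, ← h2, hY, hZ, hmm]
  refine ⟨⟨f, ⟨heq, hinj, hlab, fun u hu v hv => ?_⟩, hfb⟩, h30⟩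
  obtain ⟨g, rfl⟩ := S.mem_orb.1 hu
  obtain ⟨w, rfl⟩ := (g : Equiv.Perm Ω).surjective v
  rw [S.R_Ga, hbase w ((S.orb_invariant g w).1 hv), heq g w ((S.orb_invariant g w).1 hv),
    heq g _ (MulAction.mem_orbit_self _), hfb, adj_map (S.th_mem g).1]

/-- the half set of a point in the larger suborbit meets every line in two points -/
theorem isHalf {f : Ω → Pt} (hf : S.Chart f) (h30 : (S.nb S.b S.b).ncard = 30) :
    ∃ Y : ℕ → Bool, IsHalf Y ∧
      ∀ v ∈ S.orb S.b, (Y (f v : Pt) = true ↔ S.R S.c v) := by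
  classical
  let Y : ℕ → Bool := fun i => decide (∃ v, v ∈ S.orb S.b ∧ S.R S.c v ∧ ((f v : Pt) : ℕ) = i)
  have hYf : ∀ v ∈ S.orb S.b, (Y (f v : Pt) = true ↔ S.R S.c v) := by
    intro v hv
    simp only [Y, decide_eq_true_eq]
    exact ⟨fun ⟨u, hu, hR, e⟩ => hf.inj hu hv (Fin.ext e) ▸ hR, fun h => ⟨v, hv, h, rfl⟩⟩
  refine ⟨Y, fun l hl => ?_, hYf⟩
  have hline := line_ok
  rw [Model.allK_iff] at hline
  have h := hline l hl
  simp only [lineOK, Bool.and_eq_true, Model.allBelow_iff, Bool.or_eq_true, beq_iff_eq,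
    Bool.not_eq_true', beq_eq_false_iff_ne, Nat.blt, Nat.ble_eq] at h
  obtain ⟨-, hp⟩ := h
  have hpt : ∀ a : Fin 4, ∃ v ∈ S.orb S.b, ((f v : Pt) : ℕ) = l.getD a 0 := by
    intro a
    obtain ⟨⟨hlt, hone⟩, -⟩ := hp a a.2
    obtain ⟨v, hv, e⟩ := hf.surj (i := ⟨_, hlt⟩)
      (bitN_mask.1 (show bitN maskOne ((⟨_, hlt⟩ : Pt) : ℕ) = true from hone))
    exact ⟨v, hv, by rw [e]⟩
  choose u hu huv using hpt
  have hadj : ∀ a b : Fin 4, a ≠ b → S.R (u a) (u b) ∧
      (S.nb (u a) S.b ∩ S.nb (u b) S.b).ncard = 2 := by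
    intro a b hab
    obtain ⟨-, hb⟩ := hp a a.2
    obtain ⟨⟨hA, -⟩, hcnt⟩ := (hb b b.2).resolve_left fun e => hab (Fin.ext e)
    refine ⟨(hf.adj _ (hu a) _ (hu b)).2 (by rw [Adj, huv, huv]; exact hA), ?_⟩
    rw [← Set.ncard_image_of_injOn (hf.inj.mono fun v hv => hv.1.1), ← hcnt, ← ncard_cnt]
    refine congrArg Set.ncard (Set.ext fun i => ?_)
    rw [Set.mem_ofPred_eq, bitN_eq, Nat.land_eq, Nat.land_eq, Nat.testBit_land, Nat.testBit_land,
      ← bitN_eq, ← bitN_eq, ← bitN_eq, Bool.and_eq_true, Bool.and_eq_true, bitN_mask, ← huv a,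
      ← huv b]
    constructor
    · rintro ⟨v, ⟨h1, h2⟩, rfl⟩
      exact ⟨⟨(hf.adj _ (hu a) _ h1.1).1 h1.2, (hf.adj _ (hu b) _ h2.1).1 h2.2⟩, hf.lab_eq v h1.1⟩
    · rintro ⟨⟨h1, h2⟩, h3⟩
      obtain ⟨v, hv, rfl⟩ := hf.surj h3
      exact ⟨v, ⟨⟨hv, (hf.adj _ (hu a) _ hv).2 h1⟩, hv, (hf.adj _ (hu b) _ hv).2 h2⟩, rfl⟩
  have hW : ∀ a : Fin 4, (S.nb (u a) S.c).ncard = 81 := by
    intro a
    obtain ⟨g, hg⟩ := S.mem_orb.1 (hu a)
    have h1 := S.ncard_split S.b
    rw [← hg, S.ncard_nb_map]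
    rw [S.ncard_a_b, h30] at h1
    omega
  have hWW : ∀ a b : Fin 4, a ≠ b → (S.nb (u a) S.c ∩ S.nb (u b) S.c).ncard = 27 := by
    intro a b hab
    obtain ⟨hR, hD1⟩ := hadj a b hab
    have hcom : {v | S.R (u a) v ∧ S.R (u b) v}.ncard = 30 := by
      obtain ⟨g, hg, hga⟩ := S.trans S.a (u a)
      have hw : g⁻¹ (u b) ∈ S.orb S.b := by
        rw [← S.R_base, ← S.R_map hg, hga]; simpa using hR
      obtain ⟨k, hk⟩ := S.mem_orb.1 hw
      have : {v | S.R (u a) v ∧ S.R (u b) v} = g '' S.nb (g⁻¹ (u b)) S.b := by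
        ext v
        obtain ⟨w, rfl⟩ := g.surjective v
        rw [g.injective.mem_set_image]
        show S.R (u a) (g w) ∧ S.R (u b) (g w) ↔ w ∈ S.orb S.b ∧ S.R (g⁻¹ (u b)) w
        rw [← hga, S.R_map hg, S.R_base, show u b = g (g⁻¹ (u b)) by simp, S.R_map hg]
        simp
      rw [this, Set.ncard_image_of_injective _ g.injective, ← hk, S.ncard_nb_map, h30]
    have hsp : {v | S.R (u a) v ∧ S.R (u b) v} =
        {S.a} ∪ (S.nb (u a) S.b ∩ S.nb (u b) S.b) ∪ (S.nb (u a) S.c ∩ S.nb (u b) S.c) := by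
      ext v
      constructor
      · rintro ⟨h1, h2⟩
        rcases S.trichotomy v with hv | hv | hv
        exacts [Or.inl (Or.inl hv), Or.inl (Or.inr ⟨⟨hv, h1⟩, hv, h2⟩), Or.inr ⟨⟨hv, h1⟩, hv, h2⟩]
      · rintro ((rfl | h) | h)
        · exact ⟨S.R_symm.1 ((S.R_base _).2 (hu a)), S.R_symm.1 ((S.R_base _).2 (hu b))⟩
        · exact ⟨h.1.2, h.2.2⟩
        · exact ⟨h.1.2, h.2.2⟩
    have hd1 : Disjoint ({S.a} : Set Ω) (S.nb (u a) S.b ∩ S.nb (u b) S.b) :=
      Set.disjoint_singleton_left.2 fun h => S.not_a_b h.1.1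
    have hd2 : Disjoint ({S.a} ∪ (S.nb (u a) S.b ∩ S.nb (u b) S.b))
        (S.nb (u a) S.c ∩ S.nb (u b) S.c) := by
      refine Set.disjoint_left.2 fun v h1 h2 => ?_
      rcases h1 with h1 | h1
      · exact S.not_a_c (Set.mem_singleton_iff.1 h1 ▸ h2.1.1)
      · exact Set.disjoint_left.1 S.disjoint_orbs h1.1.1 h2.1.1
    rw [hsp, Set.ncard_union_eq hd2, Set.ncard_union_eq hd1, hD1, Set.ncard_singleton] at hcom
    omega
  -- the variance vanishes
  set D2 : Finset Ω := (S.orb S.c).toFinset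
  let e : Fin 4 → Ω → ℤ := fun a v => if S.R (u a) v then 1 else 0
  have hsum1 : ∀ a, ∑ v ∈ D2, e a v = 81 := by
    intro a
    have hc : (D2.filter fun v => S.R (u a) v).card = 81 := by
      rw [← hW a, ← Set.ncard_coe_finset]
      congr 1
      ext v
      simp [D2, nb]
    rw [Finset.sum_boole, hc]; norm_num
  have hsum2 : ∀ a b, ∑ v ∈ D2, e a v * e b v = if a = b then 81 else 27 := by
    intro a b
    by_cases hab : a = b
    · subst hab
      rw [if_pos rfl, ← hsum1 a]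
      refine Finset.sum_congr rfl fun v _ => ?_
      by_cases h : S.R (u a) v <;> simp [e, h]
    · rw [if_neg hab]
      have : ∀ v, e a v * e b v = if S.R (u a) v ∧ S.R (u b) v then 1 else 0 := fun v => by
        by_cases h1 : S.R (u a) v <;> by_cases h2 : S.R (u b) v <;> simp [e, h1, h2]
      have hc : (D2.filter fun v => S.R (u a) v ∧ S.R (u b) v).card = 27 := by
        rw [← hWW a b hab, ← Set.ncard_coe_finset]
        congr 1
        ext v
        simp [D2, nb]
      rw [Finset.sum_congr rfl fun v _ => this v, Finset.sum_boole, hc]; norm_num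
  have hvar : ∑ v ∈ D2, (∑ a, e a v - 2) ^ 2 = 0 := by
    have hexp : ∀ v, (∑ a, e a v - 2) ^ 2 =
        (∑ a, ∑ b, e a v * e b v) - 4 * (∑ a, e a v) + 4 := fun v => by
      rw [← Finset.sum_mul_sum]; ring
    have hD2 : (D2.card : ℤ) = 162 := by
      rw [← Set.ncard_eq_toFinset_card']; exact_mod_cast S.hc
    have h1 : ∑ v ∈ D2, ∑ a, ∑ b, e a v * e b v = ∑ a : Fin 4, ∑ b : Fin 4,
        (if a = b then 81 else 27 : ℤ) := by
      rw [Finset.sum_comm]
      refine Finset.sum_congr rfl fun a _ => ?_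
      rw [Finset.sum_comm]
      exact Finset.sum_congr rfl fun b _ => hsum2 a b
    have h2 : ∑ v ∈ D2, ∑ a, e a v = 4 * 81 := by
      rw [Finset.sum_comm, Finset.sum_congr rfl fun a _ => hsum1 a]
      simp
    rw [Finset.sum_congr rfl fun v _ => hexp v, Finset.sum_add_distrib, Finset.sum_sub_distrib,
      Finset.sum_const, ← Finset.mul_sum, h1, h2, nsmul_eq_mul, hD2]
    simp [Fin.sum_univ_four]
  have hc0 := (Finset.sum_eq_zero_iff_of_nonneg fun v _ => sq_nonneg _).1 hvar S.c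
    (Set.mem_toFinset.2 (MulAction.mem_orbit_self _))
  have hk : ∑ a, e a S.c = 2 := by
    have := pow_eq_zero_iff (n := 2) two_ne_zero |>.1 hc0
    omega
  have hY : ∀ a : Fin 4, (cond (Y (l.getD a 0)) 1 0 : ℕ) = if S.R (u a) S.c then 1 else 0 := by
    intro a
    rw [← huv a]
    by_cases h : S.R (u a) S.c
    · rw [if_pos h, (hYf _ (hu a)).2 (S.R_symm.1 h)]; rfl
    · rw [if_neg h]
      cases hb : Y (f (u a) : Pt)
      · rfl
      · exact absurd (S.R_symm.1 ((hYf _ (hu a)).1 hb)) h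
  have hZ : ∀ a : Fin 4, (e a S.c) = ((cond (Y (l.getD a 0)) 1 0 : ℕ) : ℤ) := by
    intro a
    rw [hY a]
    by_cases h : S.R (u a) S.c <;> simp [e, h]
  simp only [Fin.sum_univ_four, hZ] at hk
  have : ((cnt4 Y l : ℕ) : ℤ) = 2 := by
    simp only [cnt4, Nat.cast_add]
    exact hk
  exact_mod_cast this

end Setting

end CfsgLib.McLRankThree
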