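import Cfsg.Agent.McLRankThree.Suborbits

/-!
The stabiliser acting on the suborbit of 112 points, and the automorphisms of that suborbit
which carry the four families of half sets to the model.
-/

set_option autoImplicit false
set_option maxRecDepth 100000

namespace CfsgLib.McLRankThree

open CfsgLib.CosetEnum

/-- a point of the smaller suborbit -/
abbrev One := {i : Pt // lab i = 1}

/-- restriction to the smaller suborbit -/
noncomputable def res : ↥MM →* Equiv.Perm One where
  toFun g := (g : P).subtypePerm fun i => by rw [lab_of_mem g.2]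
  map_one' := Equiv.ext fun i => rfl
  map_mul' a b := Equiv.ext fun i => rfl

theorem res_val (g : ↥MM) (i : One) : ((res g i : One) : Pt) = (g : P) i := rfl

theorem res_injective : Function.Injective res := by
  have := simple_MM
  rw [← MonoidHom.ker_eq_bot_iff]
  refine (IsSimpleGroup.eq_bot_or_eq_top_of_normal _ inferInstance).resolve_right fun htop => ?_
  have hfix : ∀ g ∈ MM, ∀ i : Pt, lab i = 1 → g i = i := fun g hg i hi => by
    have h : (⟨g, hg⟩ : ↥MM) ∈ res.ker := by rw [htop]; exact Subgroup.mem_top _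
    have := congrArg (fun (p : Equiv.Perm One) => ((p ⟨i, hi⟩ : One) : Pt)) (MonoidHom.mem_ker.1 h)
    exact this
  have horb := ncard_orbit_MM lab_Q0 (Or.inl ⟨rfl, rfl⟩)
  have : MulAction.orbit MM Q0 = {Q0} := Set.eq_singleton_iff_unique_mem.2
    ⟨MulAction.mem_orbit_self _, fun y ⟨g, hg⟩ => hg ▸ hfix g g.2 Q0 lab_Q0⟩
  rw [this, Set.ncard_singleton] at horb
  omega

/-- the automorphism of the suborbit for a family -/
noncomputable def sig (f : ℕ) (i : Pt) : Pt := ptM (slot (sigmaTabs.getD f 0) 9 i)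

theorem sig_data {f : ℕ} (hf : f < 4) :
    Function.Bijective (sig f) ∧ (∀ i, lab (sig f i : Pt) = 1 ↔ lab i = 1) ∧
      (∀ i j : Pt, lab i = 1 → lab j = 1 → (Adj (sig f i) (sig f j) ↔ Adj i j)) ∧
      (∀ x < 6, ∃ g ∈ MM, ∀ i : Pt, lab i = 1 → sig f (unitGen x i) = g (sig f i)) ∧
      ∃ w : Pt, lab w = 2 ∧ ∀ i : Pt, lab i = 1 →
        (bitN (famReps.getD f 0) i = true ↔ Adj w (sig f i)) := by
  have h := (Model.allBelow_iff _ _).1 sigma_ok f hf
  simp only [sigmaOK, Bool.and_eq_true, Model.allBelow_iff, Bool.or_eq_true, Bool.not_eq_true',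
    beq_iff_eq, Nat.blt, Nat.ble_eq] at h
  obtain ⟨⟨⟨⟨⟨htab, hadj⟩, hgen⟩, hw⟩, hwl⟩, hfam⟩ := h
  have hv : ∀ i : Pt, ((sig f i : Pt) : ℕ) = slot (sigmaTabs.getD f 0) 9 i := fun i =>
    ptM_val (htab i i.2).1.1.1.1
  have hone : ∀ {i : Pt}, lab i = 1 → bitN maskOne i = true := fun h => bitN_mask.2 h
  refine ⟨?_, fun i => ?_, fun i j hi hj => ?_, fun x hx => ?_, ?_⟩
  · refine Finite.injective_iff_bijective.1 fun i j e => Fin.ext ?_
    have e' := congrArg Fin.val e
    rw [hv, hv] at e'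
    rw [← (htab i i.2).1.1.2, e', (htab j j.2).1.1.2]
  · rw [← bitN_mask, ← bitN_mask, hv, (htab i i.2).2]
  · show bitN _ _ = true ↔ bitN _ _ = true
    rw [((hadj i i.2).resolve_left (by simp [hone hi]) j j.2).resolve_left (by simp [hone hj]), hv,
      hv]
  · obtain ⟨⟨hok, h2⟩, hc⟩ := hgen x hx
    refine ⟨el _, fix_P0 hok h2, fun i hi => Fin.ext ?_⟩
    have hu : okW (unitWords.getD x []) = true :=
      ok_getD (fun w hw => (el_mem_MM (by simp [hw])).2) x
    rw [hv, el_val hok, hv, unitGen, el_val hu]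
    exact (hc i i.2).resolve_left (by simp [hone hi])
  · refine ⟨ptM (sigmaPts.getD f 0), by rw [ptM_val hw]; exact hwl, fun i hi => ?_⟩
    show _ ↔ bitN _ _ = true
    rw [ptM_val hw, hv, (hfam i i.2).resolve_left (by simp [hone hi])]

/-- conjugating by the automorphism keeps the stabiliser -/
theorem exists_twist {f : ℕ} (hf : f < 4) :
    ∃ T : ↥MM ≃* ↥MM, ∀ (g : ↥MM) (i : Pt), lab i = 1 →
      sig f ((g : P) i) = (T g : P) (sig f i) := by
  obtain ⟨hbij, hlab, -, hgen, -⟩ := sig_data hf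
  let E : Equiv.Perm Pt := Equiv.ofBijective (sig f) hbij
  let F : Equiv.Perm One := E.subtypePerm hlab
  let C : Equiv.Perm One →* Equiv.Perm One := (MulAut.conj F).toMonoidHom
  have hle : (C.comp res).range ≤ res.range := by
    rintro _ ⟨⟨g, hg⟩, rfl⟩
    have hg' := hg
    rw [MM_eq_closure] at hg'
    suffices h : ∀ g (hg : g ∈ Subgroup.closure {g | ∃ x < 6, unitGen x = g}),
        ∃ hgM : g ∈ MM, C (res ⟨g, hgM⟩) ∈ res.range by
      obtain ⟨_, h⟩ := h g hg'
      exact h
    intro g hg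
    induction hg using Subgroup.closure_induction with
    | mem y hy =>
      obtain ⟨x, hx, rfl⟩ := hy
      obtain ⟨k, hk, hkk⟩ := hgen x hx
      refine ⟨unit_mem x, ⟨⟨k, hk⟩, Equiv.ext fun j => Subtype.ext ?_⟩⟩
      show k j = ((F (res ⟨unitGen x, unit_mem x⟩ (F⁻¹ j)) : One) : Pt)
      have hj : ((F (F⁻¹ j) : One) : Pt) = (j : Pt) := by simp
      rw [← hj]
      exact (hkk _ (F⁻¹ j).2).symm
    | one => exact ⟨one_mem _, ⟨1, by rw [show (⟨1, one_mem _⟩ : ↥MM) = 1 from rfl, map_one, map_one]⟩⟩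
    | mul a b _ _ ha hb =>
      obtain ⟨ha1, ha2⟩ := ha
      obtain ⟨hb1, hb2⟩ := hb
      refine ⟨mul_mem ha1 hb1, ?_⟩
      rw [show (⟨a * b, mul_mem ha1 hb1⟩ : ↥MM) = ⟨a, ha1⟩ * ⟨b, hb1⟩ from rfl, map_mul, map_mul]
      exact mul_mem ha2 hb2
    | inv a _ ha =>
      obtain ⟨ha1, ha2⟩ := ha
      refine ⟨inv_mem ha1, ?_⟩
      rw [show (⟨a⁻¹, inv_mem ha1⟩ : ↥MM) = ⟨a, ha1⟩⁻¹ from rfl, map_inv, map_inv]
      exact inv_mem ha2
  have hC : ∀ g, C (res g) ∈ res.range := fun g => hle ⟨g, rfl⟩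
  let e := MonoidHom.ofInjective res_injective
  let h : ↥MM →* ↥MM := e.symm.toMonoidHom.comp ((C.comp res).codRestrict res.range hC)
  have hinj : Function.Injective h := e.symm.injective.comp fun a b hab =>
    res_injective ((MulAut.conj F).injective (congrArg Subtype.val hab))
  refine ⟨MulEquiv.ofBijective h ⟨hinj, Finite.surjective_of_injective hinj⟩, fun g i hi => ?_⟩
  have hres : res (h g) = C (res g) := by
    show res (e.symm ⟨_, hC g⟩) = _
    exact congrArg Subtype.val (e.apply_symm_apply ⟨_, hC g⟩)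
  have := congrArg (fun p : Equiv.Perm One => ((p (F ⟨i, hi⟩) : One) : Pt)) hres
  have hlhs : ((res (h g) (F ⟨i, hi⟩) : One) : Pt) = (h g : P) (sig f i) := rfl
  have hrhs : ((C (res g) (F ⟨i, hi⟩) : One) : Pt) = sig f ((g : P) i) := by
    show ((F (res g (F⁻¹ (F ⟨i, hi⟩))) : One) : Pt) = _
    rw [show F⁻¹ (F ⟨i, hi⟩) = (⟨i, hi⟩ : One) from F.symm_apply_apply _]
    rfl
  rw [← hrhs, ← this]
  rfl

/-- a point of the larger suborbit is determined by its half set -/
theorem half_inj {v w : Pt} (hv : lab v = 2) (hw : lab w = 2)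
    (h : ∀ i : Pt, lab i = 1 → (Adj v i ↔ Adj w i)) : v = w := by
  have hm : Nat.land (nbMask v) maskOne = Nat.land (nbMask w) maskOne := by
    refine Nat.eq_of_testBit_eq fun j => ?_
    simp only [Nat.land_eq, Nat.testBit_land]
    rcases lt_or_ge j 275 with hj | hj
    · cases hb : maskOne.testBit j
      · simp
      · have hl : lab ((⟨j, hj⟩ : Pt) : ℕ) = 1 := bitN_mask.1 (by rw [bitN_eq]; exact hb)
        have := h ⟨j, hj⟩ hl
        rw [Adj, Adj, bitN_eq, bitN_eq] at this
        simp only [Bool.and_true]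
        exact Bool.eq_iff_iff.2 this
    · have hlt : maskOne < 2 ^ 275 := by decide +kernel
      simp [Nat.testBit_lt_two_pow (lt_of_lt_of_le hlt (Nat.pow_le_pow_right (by omega) hj))]
  have h := (Model.allBelow_iff _ _).1 half_distinct v v.2
  simp only [Bool.or_eq_true, Bool.not_eq_true', beq_iff_eq, beq_eq_false_iff_ne, hv, ne_eq,
    not_true_eq_false, false_or, Model.allBelow_iff] at h
  have h' := h w w.2
  simp only [Bool.or_eq_true, Bool.not_eq_true', beq_iff_eq, beq_eq_false_iff_ne, hw, ne_eq,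
    not_true_eq_false, false_or, hm] at h'
  exact Fin.ext h'

/-- the stabiliser of a half set in the stabiliser fixes its point -/
theorem fix_of_half {g : P} (hg : g ∈ MM) {w : Pt} (hw : lab w = 2)
    (h : ∀ i : Pt, lab i = 1 → (Adj w (g i) ↔ Adj w i)) : g w = w := by
  refine half_inj ((lab_of_mem hg w).trans hw) hw fun i hi => ?_
  have hli : lab ((g⁻¹ i : Pt) : ℕ) = 1 := (lab_of_mem (inv_mem hg) i).trans hi
  have := h (g⁻¹ i) hli
  rw [← adj_map (inv_mem hg).1 (g w) i]
  simp only [Equiv.Perm.coe_inv, Equiv.symm_apply_apply]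
  simpa using this.symm

end CfsgLib.McLRankThree
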