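import Cfsg.Agent.McLRankThree.Counting

/-!
The isomorphism of the orbital graph with the model, and of the group with the model of the
McLaughlin group.
-/

set_option autoImplicit false

namespace CfsgLib.McLRankThree

open CfsgLib.CosetEnum

theorem ncard_MM_stab {w : Pt} (hw : lab w = 2) :
    Nat.card ↥(MM ⊓ MulAction.stabilizer P w) = 20160 := by
  rw [← card_stab_two hw]
  have : MM ⊓ MulAction.stabilizer P w = pointStab KK [w, P0] := by
    ext g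
    simp only [Subgroup.mem_inf, MulAction.mem_stabilizer_iff, mem_MM, mem_pointStab,
      List.mem_cons, List.not_mem_nil, or_false, forall_eq_or_imp, forall_eq,
      Equiv.Perm.smul_def]
    tauto
  rw [this]

namespace Setting

variable {Ω : Type*} [Fintype Ω] [DecidableEq Ω] (S : Setting Ω)

theorem ncard_b_c (h30 : (S.nb S.b S.b).ncard = 30) : (S.nb S.b S.c).ncard = 81 := by
  have h := S.ncard_split S.b
  rw [S.ncard_a_b, h30] at h
  omega

theorem not_R_a_c {x : Ω} (hx : x ∈ S.orb S.c) : ¬ S.R S.a x := fun h =>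
  Set.disjoint_left.1 S.disjoint_orbs ((S.R_base x).1 h) hx

theorem ncard_c_b (h30 : (S.nb S.b S.b).ncard = 30) : (S.nb S.c S.b).ncard = 56 := by
  have h := S.double_count
  rw [S.ncard_b_c h30] at h
  omega

theorem ncard_c_c (h30 : (S.nb S.b S.b).ncard = 30) : (S.nb S.c S.c).ncard = 56 := by
  have h := S.ncard_split S.c
  have h0 : {v | v = S.a ∧ S.R S.c v}.ncard = 0 := by
    rw [Set.ncard_eq_zero (Set.toFinite _), Set.eq_empty_iff_forall_notMem]
    rintro v ⟨rfl, hv⟩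
    exact S.not_R_a_c (MulAction.mem_orbit_self S.c) (S.R_symm.1 hv)
  rw [h0, S.ncard_c_b h30] at h
  omega

/-- the graph is that of the model once the half set of `c` is that of a point -/
theorem exists_iso_graph {f : Ω → Pt} (hf : S.Chart f) (h30 : (S.nb S.b S.b).ncard = 30)
    {w : Pt} (hw : lab w = 2) (hcw : ∀ v ∈ S.orb S.b, (S.R S.c v ↔ Adj w (f v))) :
    ∃ φ : Ω ≃ Pt, ∀ u v, S.R u v ↔ Adj (φ u) (φ v) := by
  classical
  -- the stabiliser of `c` is that of the point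
  have hle : S.img S.c ≤ MM ⊓ MulAction.stabilizer P w := by
    intro k hk
    obtain ⟨g, hg, rfl⟩ := S.mem_img.1 hk
    refine ⟨S.th_mem g, ?_⟩
    refine fix_of_half (S.th_mem g) hw fun i hi => ?_
    obtain ⟨v, hv, rfl⟩ := hf.surj hi
    rw [← hf.equiv g v hv, ← hcw v hv, ← hcw _ ((S.orb_invariant g v).2 hv)]
    conv_lhs => rw [← hg]
    exact S.R_Ga g S.c v
  have himg : S.img S.c = MM ⊓ MulAction.stabilizer P w :=
    Subgroup.eq_of_le_of_card_ge hle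
      (by rw [ncard_MM_stab hw, S.card_img, S.card_stab_c])
  have hq : ∀ g : ↥S.Ga, S.th g w = w ↔ (g : Equiv.Perm Ω) S.c = S.c := fun g => by
    constructor
    · intro h
      have hm : S.th g ∈ S.img S.c := by rw [himg]; exact ⟨S.th_mem g, h⟩
      obtain ⟨g', hg', e⟩ := S.mem_img.1 hm
      rw [← S.th_inj e]; exact hg'
    · intro h
      exact (hle (S.mem_img.2 ⟨g, h, rfl⟩)).2
  obtain ⟨f2, hf2⟩ := S.exists_map hq
  have heq2 : ∀ g : ↥S.Ga, ∀ v ∈ S.orb S.c, f2 ((g : Equiv.Perm Ω) v) = S.th g (f2 v) := by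
    intro g v hv
    obtain ⟨k, rfl⟩ := S.mem_orb.1 hv
    rw [hf2 k, ← Equiv.Perm.mul_apply, ← Equiv.Perm.mul_apply, ← map_mul, ← hf2 (g * k)]
    rfl
  have hinj2 : Set.InjOn f2 (S.orb S.c) := by
    intro u hu v hv e
    obtain ⟨g, rfl⟩ := S.mem_orb.1 hu
    obtain ⟨k, rfl⟩ := S.mem_orb.1 hv
    rw [hf2, hf2] at e
    exact (S.th_eq_iff hq g k).1 e
  have hlab2 : ∀ v ∈ S.orb S.c, lab (f2 v : Pt) = 2 := by
    intro v hv
    obtain ⟨g, rfl⟩ := S.mem_orb.1 hv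
    rw [hf2, lab_of_mem (S.th_mem g), hw]
  have hf2c : f2 S.c = w := by simpa using hf2 1
  -- the neighbours of `c` in its own suborbit
  set Z : Set Pt := f2 '' S.nb S.c S.c
  have hZinv := S.image_invariant (x := S.c) (y := S.c) heq2
  rw [himg] at hZinv
  obtain ⟨m, hm, hmW⟩ := trans_two lab_W0 hw
  let Z0 : Set Pt := {j | m j ∈ Z}
  have hZ0l : ∀ j ∈ Z0, lab j = 2 := by
    rintro j ⟨v, hv, e⟩
    rw [← lab_of_mem hm j, ← e]
    exact hlab2 v hv.1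
  have hZ0n : Z0.ncard = 56 := by
    rw [← Set.ncard_image_of_injective Z0 m.injective,
      show m '' Z0 = Z from m.image_preimage Z,
      Set.ncard_image_of_injOn (hinj2.mono fun v hv => hv.1)]
    exact S.ncard_c_c h30
  have hZ0inv : ∀ wd ∈ wWords, ∀ j, el wd j ∈ Z0 ↔ j ∈ Z0 := by
    intro wd hwd j
    obtain ⟨hM, hfix⟩ := (wWords_mem hwd).1
    have hk : m * el wd * m⁻¹ ∈ MM ⊓ MulAction.stabilizer P w := by
      refine ⟨MM.mul_mem (MM.mul_mem hm hM) (MM.inv_mem hm), ?_⟩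
      show m (el wd (m⁻¹ w)) = w
      rw [← hmW]
      simp only [Equiv.Perm.coe_inv, Equiv.symm_apply_apply]
      rw [show el wd W0 = W0 from hfix]
    have h := hZinv _ hk (m j)
    rw [Equiv.Perm.mul_apply, Equiv.Perm.mul_apply, show m⁻¹ (m j) = j by simp] at h
    exact h
  obtain ⟨-, hcW, -, -, huW⟩ := masks_unique
  obtain ⟨m1, hm1, hZ1, hm1c⟩ := certW.exists_mask certs_ok.2.2.2.2
    (fun wd hwd => (wWords_mem hwd).2) Z0 hZ0l hZ0inv
  set Zr : Set Pt := {i | labW i = true}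
  have hZrn : Zr.ncard = 56 := by rw [ncard_cnt]; exact hcW
  obtain ⟨m2, hm2, hZ2, hm2c⟩ := certW.exists_mask certs_ok.2.2.2.2
    (fun wd hwd => (wWords_mem hwd).2) Zr (fun i hi => (labW_iff.1 hi).1) (fun wd hwd i => by
      obtain ⟨hM, hfix⟩ := (wWords_mem hwd).1
      show labW _ = true ↔ labW _ = true
      rw [labW_iff, labW_iff, lab_of_mem hM]
      refine and_congr_right fun _ => ?_
      conv_lhs => rw [← show el wd W0 = W0 from hfix]
      exact adj_map hM.1 _ _)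
  have hmm : m1 = m2 := by
    have := (Model.allBelow_iff _ _).1 ((Model.allBelow_iff _ _).1 huW m1 hm1) m2 hm2
    simpa [← hm1c, ← hm2c, hZ0n, hZrn] using this
  have hZiff : ∀ j : Pt, m j ∈ Z ↔ lab j = 2 ∧ Adj W0 j := fun j =>
    ((hZ1 j).trans (hmm ▸ (hZ2 j).symm)).trans labW_iff
  have Hcc : ∀ v ∈ S.orb S.c, (S.R S.c v ↔ Adj w (f2 v)) := by
    intro v hv
    obtain ⟨j, hj⟩ := m.surjective (f2 v)
    have h1 : f2 v ∈ Z ↔ S.R S.c v :=
      ⟨fun ⟨u, hu, e⟩ => hinj2 hu.1 hv e ▸ hu.2, fun h => ⟨v, ⟨hv, h⟩, rfl⟩⟩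
    rw [← h1, ← hj, hZiff, ← hmW, adj_map hm.1]
    exact and_iff_right (by rw [← lab_of_mem hm j, hj]; exact hlab2 v hv)
  -- the bijection
  let φ : Ω → Pt := fun x => if x = S.a then P0 else if x ∈ S.orb S.b then f x else f2 x
  have hcb : ∀ x ∈ S.orb S.c, x ≠ S.a ∧ x ∉ S.orb S.b := fun x hx =>
    ⟨fun e => S.not_a_c (e ▸ hx), fun h => Set.disjoint_left.1 S.disjoint_orbs h hx⟩
  have φa : φ S.a = P0 := if_pos rfl
  have φ1 : ∀ x ∈ S.orb S.b, φ x = f x := fun x hx => by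
    show ite _ _ _ = _
    rw [if_neg (fun e : x = S.a => S.not_a_b (e ▸ hx)), if_pos hx]
  have φ2 : ∀ x ∈ S.orb S.c, φ x = f2 x := fun x hx => by
    show ite _ _ _ = _
    rw [if_neg (hcb x hx).1, if_neg (hcb x hx).2]
  have hlab : ∀ x, (x = S.a ∧ lab (φ x : Pt) = 0) ∨ (x ∈ S.orb S.b ∧ lab (φ x : Pt) = 1) ∨
      (x ∈ S.orb S.c ∧ lab (φ x : Pt) = 2) := by
    intro x
    rcases S.trichotomy x with rfl | hx | hx
    · exact Or.inl ⟨rfl, by rw [φa]; exact lab_P0⟩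
    · exact Or.inr (Or.inl ⟨hx, by rw [φ1 x hx]; exact hf.lab_eq x hx⟩)
    · exact Or.inr (Or.inr ⟨hx, by rw [φ2 x hx]; exact hlab2 x hx⟩)
  have hφinj : Function.Injective φ := by
    intro x y e
    rcases hlab x with ⟨rfl, hx⟩ | ⟨hxo, hx⟩ | ⟨hxo, hx⟩ <;>
      rcases hlab y with ⟨rfl, hy⟩ | ⟨hyo, hy⟩ | ⟨hyo, hy⟩
    all_goals first
      | rfl
      | (rw [e] at hx; omega)
      | (rw [φ1 x hxo, φ1 y hyo] at e; exact hf.inj hxo hyo e)
      | (rw [φ2 x hxo, φ2 y hyo] at e; exact hinj2 hxo hyo e)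
  have hbij : Function.Bijective φ := (Fintype.bijective_iff_injective_and_card φ).2
    ⟨hφinj, by rw [S.card_univ, Fintype.card_fin]⟩
  have hequiv : ∀ (g : ↥S.Ga) (x : Ω), φ ((g : Equiv.Perm Ω) x) = S.th g (φ x) := by
    intro g x
    rcases S.trichotomy x with rfl | hx | hx
    · rw [S.fix_a, φa]; exact (mem_MM.1 (S.th_mem g)).2.symm
    · rw [φ1 _ ((S.orb_invariant g x).2 hx), φ1 x hx]; exact hf.equiv g x hx
    · rw [φ2 _ ((S.orb_invariant g x).2 hx), φ2 x hx]; exact heq2 g x hx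
  have Ha : ∀ v, S.R S.a v ↔ Adj (φ S.a) (φ v) := by
    intro v
    rw [φa, adj_P0, S.R_base]
    rcases hlab v with ⟨rfl, h⟩ | ⟨hv, h⟩ | ⟨hv, h⟩
    · exact iff_of_false S.not_a_b (by rw [h]; decide)
    · exact iff_of_true hv h
    · exact iff_of_false (hcb v hv).2 (by rw [h]; decide)
  have Hc : ∀ v, S.R S.c v ↔ Adj (φ S.c) (φ v) := by
    intro v
    rcases hlab v with ⟨rfl, -⟩ | ⟨hv, -⟩ | ⟨hv, -⟩
    · rw [S.R_symm, Ha, adj_symm]
    · rw [φ2 _ (MulAction.mem_orbit_self _), hf2c, φ1 v hv]; exact hcw v hv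
    · rw [φ2 _ (MulAction.mem_orbit_self _), hf2c, φ2 v hv]; exact Hcc v hv
  have move : ∀ {u : Ω}, (∀ v, S.R u v ↔ Adj (φ u) (φ v)) → ∀ (g : ↥S.Ga) (v : Ω),
      S.R ((g : Equiv.Perm Ω) u) v ↔ Adj (φ ((g : Equiv.Perm Ω) u)) (φ v) := by
    intro u hu g v
    obtain ⟨x, rfl⟩ : ∃ x, (g : Equiv.Perm Ω) x = v := (g : Equiv.Perm Ω).surjective v
    rw [S.R_Ga, hu, hequiv, hequiv, adj_map (S.th_mem g).1]
  have Hb : ∀ v, S.R S.b v ↔ Adj (φ S.b) (φ v) := by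
    intro v
    rcases hlab v with ⟨rfl, -⟩ | ⟨hv, -⟩ | ⟨hv, -⟩
    · rw [S.R_symm, Ha, adj_symm]
    · rw [φ1 _ (MulAction.mem_orbit_self _), φ1 v hv]
      exact hf.adj _ (MulAction.mem_orbit_self _) v hv
    · obtain ⟨g, rfl⟩ := S.mem_orb.1 hv
      rw [S.R_symm, move Hc g, adj_symm]
  refine ⟨Equiv.ofBijective φ hbij, fun u v => ?_⟩
  show S.R u v ↔ Adj (φ u) (φ v)
  rcases S.trichotomy u with rfl | hu | hu
  · exact Ha v
  · obtain ⟨g, rfl⟩ := S.mem_orb.1 hu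
    exact move Hb g v
  · obtain ⟨g, rfl⟩ := S.mem_orb.1 hu
    exact move Hc g v

theorem iso_of_graph {φ : Ω ≃ Pt} (hφ : ∀ u v, S.R u v ↔ Adj (φ u) (φ v)) :
    Nonempty (↥S.G ≃* ↥KK) := by
  let Φ : Equiv.Perm Ω ≃* P := φ.permCongrHom
  have hle : S.G.map Φ.toMonoidHom ≤ AutG := by
    rintro _ ⟨g, hg, rfl⟩ i j
    show Adj (φ (g (φ.symm i))) (φ (g (φ.symm j))) ↔ Adj i j
    rw [← hφ, S.R_map hg, hφ, Equiv.apply_symm_apply, Equiv.apply_symm_apply]
  let e : ↥S.G ≃* ↥(S.G.map Φ.toMonoidHom) := Φ.subgroupMap S.G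
  have hc : Nat.card (S.G.map Φ.toMonoidHom) = 898128000 := by
    rw [← Nat.card_congr e.toEquiv, S.card_G]
  exact ⟨e.trans (MulEquiv.subgroupCongr (eq_KK hle hc))⟩

/-- the case in which `b` and `c` are adjacent -/
theorem iso_of_adjacent (hS : S.img S.b = PQ0) (hbc : S.R S.b S.c) :
    Nonempty (↥S.G ≃* ↥KK) := by
  obtain ⟨⟨f, hf, hfb⟩, h30⟩ := S.exists_chart_one hS
  obtain ⟨Y, hY, hYf⟩ := S.isHalf hf h30
  have hq : Y qPt = true := by
    rw [← Q0_val, ← hfb]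
    exact (hYf _ (MulAction.mem_orbit_self _)).2 (S.R_symm.1 hbc)
  obtain ⟨k, hk, wd, hok, h2, hcl⟩ := half_classify hY hq
  have hg : el wd ∈ MM := fix_P0 hok h2
  obtain ⟨hbij, hlab, hadj, -, w0, hw0, hfam⟩ := sig_data hk
  obtain ⟨T, hT⟩ := exists_twist hk
  let th2 : ↥S.Ga →* P :=
    (MM.subtype.comp T.toMonoidHom).comp (S.th.codRestrict MM S.th_mem)
  have hi : Function.Injective th2 :=
    (Subtype.val_injective.comp T.injective).comp
      (fun a b h => S.th_inj (congrArg Subtype.val h))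
  have hr : th2.range = MM := by
    refine le_antisymm (by rintro _ ⟨x, rfl⟩; exact (T _).2) fun y hy => ?_
    obtain ⟨x, hx⟩ : (T.symm ⟨y, hy⟩ : P) ∈ S.th.range := by rw [S.th_range]; exact (T.symm _).2
    exact ⟨x, by
      show (T ⟨S.th x, S.th_mem x⟩ : P) = y
      rw [show (⟨S.th x, S.th_mem x⟩ : ↥MM) = T.symm ⟨y, hy⟩ from Subtype.ext hx,
        T.apply_symm_apply]⟩
  let S2 : Setting Ω := ⟨S.G, S.trans, S.card_univ, S.a, th2, hi, hr, S.b, S.c, S.hb, S.hc⟩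
  let f' : Ω → Pt := fun v => sig k (f v)
  have hf' : S2.Chart f' := by
    refine ⟨fun g v hv => ?_, fun u hu v hv e => hf.inj hu hv (hbij.1 e),
      fun v hv => (hlab _).2 (hf.lab_eq v hv), fun u hu v hv => ?_⟩
    · show sig k (f ((g : Equiv.Perm Ω) v)) = _
      rw [hf.equiv g v hv]
      exact hT ⟨S.th g, S.th_mem g⟩ (f v) (hf.lab_eq v hv)
    · exact (hf.adj u hu v hv).trans (hadj _ _ (hf.lab_eq u hu) (hf.lab_eq v hv)).symm
  set m : ↥MM := T ⟨el wd, hg⟩ with hm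
  have hcw : ∀ v ∈ S.orb S.b, (S.R S.c v ↔ Adj ((m : P) w0) (f' v)) := by
    intro v hv
    have hl := hf.lab_eq v hv
    have hl' : lab ((el wd)⁻¹ (f v) : Pt) = 1 := (lab_of_mem (inv_mem hg) _).trans hl
    rw [← hYf v hv, hcl _ (f v).2 (bitN_mask.2 hl),
      ← el_val (okW_reverse.2 hok), el_reverse hok, hfam _ hl']
    have e : sig k ((el wd)⁻¹ (f v)) = (m : P)⁻¹ (f' v) := by
      rw [show (el wd)⁻¹ (f v) = (((⟨el wd, hg⟩ : ↥MM)⁻¹ : ↥MM) : P) (f v) from rfl,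
        hT _ _ hl, map_inv]
      rfl
    rw [e, ← adj_map m.2.1 w0]
    simp
  obtain ⟨φ, hφ⟩ := S2.exists_iso_graph hf' h30 ((lab_of_mem m.2 w0).trans hw0) hcw
  exact S2.iso_of_graph hφ

/-- the group is the model -/
theorem iso_KK (hS : S.img S.b = PQ0) : Nonempty (↥S.G ≃* ↥KK) := by
  obtain ⟨-, h30⟩ := S.exists_chart_one hS
  obtain ⟨c', hc', hR⟩ := Set.nonempty_of_ncard_ne_zero
    (s := S.nb S.b S.c) (by rw [S.ncard_b_c h30]; omega)
  let S2 : Setting Ω := ⟨S.G, S.trans, S.card_univ, S.a, S.th, S.th_inj, S.th_range, S.b, c',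
    S.hb, by rw [MulAction.orbit_eq_iff.2 hc']; exact S.hc⟩
  exact S2.iso_of_adjacent hS hR

end Setting

end CfsgLib.McLRankThree
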