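import Cfsg.Agent.McLRankThree.Search
import Cfsg.Agent.U43Mult.Model
import Cfsg.Agent.Schur.Chain
import Cfsg.Agent.CosetEnum.Chain

/-! The point stabiliser in the McLaughlin group: its orbits and its identification with PSU₄(3). -/

set_option autoImplicit false
set_option maxRecDepth 100000

namespace CfsgLib.McLRankThree

open CfsgLib.CosetEnum CfsgLib.Schur

/-- the fixed point -/
def P0 : Pt := ptM 2

theorem P0_val : ((P0 : Pt) : ℕ) = 2 := ptM_val (by omega)

/-- a point in the smaller suborbit -/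
noncomputable def Q0 : Pt := ptM qPt

/-- a point in the larger suborbit -/
noncomputable def W0 : Pt := ptM wPt

theorem Q0_val : ((Q0 : Pt) : ℕ) = qPt := ptM_val lab_split.2.2.2.2.2.2.1

theorem W0_val : ((W0 : Pt) : ℕ) = wPt := ptM_val lab_split.2.2.2.2.2.2.2

/-- the stabiliser -/
noncomputable def MM : Subgroup P := KK ⊓ MulAction.stabilizer P P0

theorem mem_MM {g : P} : g ∈ MM ↔ g ∈ KK ∧ g P0 = P0 := Iff.rfl

theorem fix_P0 {w : List ℕ} (hok : okW w = true) (h : actN w 2 = 2) : el w ∈ MM := by
  refine mem_MM.2 ⟨el_mem_KK hok, Fin.ext ?_⟩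
  rw [el_val hok, P0_val, h]

theorem el_mem_MM {w : List ℕ}
    (hw : w ∈ stabWords ++ unitWords ++ sylWords ++ qWords ++ wWords) :
    el w ∈ MM ∧ okW w = true := by
  have h := stab_words_ok
  rw [Model.allK_iff] at h
  have h' := h w hw
  rw [Bool.and_eq_true, beq_iff_eq] at h'
  exact ⟨fix_P0 h'.1 h'.2, h'.1⟩

theorem exists_move (i : Pt) : ∃ g ∈ KK, g i = P0 := by
  have h := (Model.allBelow_iff _ _).1 move_ok i i.2
  simp only [moveOK, Bool.and_eq_true, beq_iff_eq] at h
  exact ⟨_, el_mem_KK h.1.1, Fin.ext (by rw [el_val h.1.1, h.1.2, P0_val])⟩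

theorem card_MM : Nat.card MM = 3265920 := by
  have h := card_pointStab_eq KK [] P0
  have horb : MulAction.orbit (pointStab KK ([] : List Pt)) P0 = Set.univ :=
    Set.eq_univ_of_forall fun i => by
      obtain ⟨g, hg, hgi⟩ := exists_move i
      exact ⟨⟨g⁻¹, inv_mem hg⟩, by show g⁻¹ P0 = i; rw [← hgi]; simp⟩
  rw [horb, Set.ncard_univ, Nat.card_fin] at h
  have e : pointStab KK [P0] = MM := rfl
  rw [e, show pointStab KK ([] : List Pt) = KK from rfl, McLCover.card_K] at h
  have h' : 275 * Nat.card MM = 898128000 := h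
  omega

theorem gword_flat (r : List ℕ) :
    gword (fun x => el (unitWords.getD x [])) r = el (flat unitWords r) := by
  induction r with
  | nil => rfl
  | cons x r ih =>
    rw [gword_cons, ih, show flat unitWords (x :: r) = unitWords.getD x [] ++ flat unitWords r from
      List.flatMap_cons, el_append]

/-- the generators of the stabiliser -/
noncomputable def unitGen (x : ℕ) : P := el (unitWords.getD x [])

theorem unit_mem (x : ℕ) : unitGen x ∈ MM :=
  el_getD_mem (fun w hw => (el_mem_MM (by simp [hw])).1) x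

theorem unitGen_rels {r : List ℕ} (hr : r ∈ U43Mult.rels) : gword unitGen r = 1 := by
  have h := unit_rels.1
  rw [Model.allK_iff] at h
  show gword (fun x => el (unitWords.getD x [])) r = 1
  rw [gword_flat, el_eq_of_base (ok_flat (fun w hw => (el_mem_MM (by simp [hw])).2) r)
    (okW_iff.2 (by simp)) (h r hr), el_nil]

/-- the unitary group is the stabiliser, with generators to generators -/
theorem exists_unit_iso : ∃ φ : U43Mult.G9 ≃* ↥MM, ∀ x < 6, (φ (U43Mult.genG x) : P) = unitGen x := by
  classical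
  have hfin : Finite U43Mult.G9 := Nat.finite_of_card_ne_zero (by rw [U43Mult.card_G9]; norm_num)
  let p : ℕ → U43Mult.G9 × P := fun x => (U43Mult.genG x, unitGen x)
  have hp : ∀ w ∈ U43Mult.rels, gword p w = 1 := fun w hw => by
    refine Prod.ext ?_ ?_
    · show MonoidHom.fst _ _ (gword p w) = 1
      rw [gword_map]
      exact U43Mult.genG_rels w hw
    · show MonoidHom.snd _ _ (gword p w) = 1
      rw [gword_map]
      exact unitGen_rels hw
  let Γ := Schur.Chain.seg p 6
  have hcard := U43Mult.card_seg_le p hp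
  have : Finite Γ := Nat.finite_of_card_ne_zero hcard.2
  let f : Γ →* U43Mult.G9 := (MonoidHom.fst _ _).comp Γ.subtype
  have hsurj : Function.Surjective f := by
    rw [← MonoidHom.range_eq_top, MonoidHom.range_comp, Subgroup.range_subtype,
      show Γ = Subgroup.closure {a | ∃ x < 6, p x = a} from rfl, MonoidHom.map_closure,
      ← U43Mult.genG_top]
    refine congrArg Subgroup.closure (Set.ext fun z => ?_)
    constructor
    · rintro ⟨_, ⟨x, hx, rfl⟩, rfl⟩
      exact ⟨x, hx, rfl⟩
    · rintro ⟨x, hx, rfl⟩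
      exact ⟨p x, ⟨x, hx, rfl⟩, rfl⟩
  have hbij : Function.Bijective f :=
    (Nat.bijective_iff_surjective_and_card _).2 ⟨hsurj, le_antisymm
      (by rw [U43Mult.card_G9]; exact hcard.1) (Nat.card_le_card_of_surjective f hsurj)⟩
  let e := MulEquiv.ofBijective f hbij
  let h0 : U43Mult.G9 →* P := ((MonoidHom.snd _ _).comp Γ.subtype).comp e.symm.toMonoidHom
  have hgen : ∀ x < 6, h0 (U43Mult.genG x) = unitGen x := fun x hx => by
    have hmem : p x ∈ Γ := Subgroup.subset_closure ⟨x, hx, rfl⟩
    have he : e.symm (U43Mult.genG x) = ⟨p x, hmem⟩ := e.symm_apply_eq.2 rfl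
    show ((e.symm (U43Mult.genG x) : Γ) : U43Mult.G9 × P).2 = _
    rw [he]
  have hrange : ∀ a, h0 a ∈ MM := fun a => by
    suffices hle : (⊤ : Subgroup U43Mult.G9) ≤ MM.comap h0 from hle (Subgroup.mem_top a)
    rw [← U43Mult.genG_top, Subgroup.closure_le]
    rintro _ ⟨x, hx, rfl⟩
    show h0 _ ∈ MM
    rw [hgen x hx]
    exact unit_mem x
  have hne : unitGen 0 ≠ 1 := fun h => by
    have hb := unit_rels.2.2
    have hok : okW (unitWords.getD 0 []) = true :=
      ok_getD (fun w hw => (el_mem_MM (by simp [hw])).2) 0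
    simp only [eqB, Bool.eq_false_iff, ne_eq, Model.allK_iff, beq_iff_eq] at hb
    refine hb fun b hb' => ?_
    have hlt : b < 275 := by
      have : allK (fun b => Nat.blt b 275) McLCover.basePts = true := by decide +kernel
      rw [Model.allK_iff] at this
      simpa [Nat.blt, Nat.ble_eq] using this b hb'
    have := el_ptM hok hlt
    rw [show el (unitWords.getD 0 []) = 1 from h] at this
    have h2 : ptM b = ptM (actN (unitWords.getD 0 []) b) := this
    have := congrArg Fin.val h2.symm
    rw [ptM_val hlt, ptM_val (actN_lt hok hlt)] at this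
    exact this
  let h1 : U43Mult.G9 →* ↥MM := h0.codRestrict MM hrange
  have hinj : Function.Injective h1 := by
    rw [← MonoidHom.ker_eq_bot_iff]
    refine (IsSimpleGroup.eq_bot_or_eq_top_of_normal _ inferInstance).resolve_right fun htop => hne ?_
    rw [← hgen 0 (by omega)]
    have hm : U43Mult.genG 0 ∈ h1.ker := by rw [htop]; exact Subgroup.mem_top _
    exact congrArg (fun z : ↥MM => (z : P)) (MonoidHom.mem_ker.1 hm)
  exact ⟨MulEquiv.ofBijective h1 ((Nat.bijective_iff_injective_and_card _).2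
    ⟨hinj, by rw [U43Mult.card_G9, card_MM]⟩), hgen⟩

theorem MM_eq_closure : MM = Subgroup.closure {g | ∃ x < 6, unitGen x = g} := by
  refine le_antisymm (fun g hg => ?_) ?_
  · obtain ⟨φ, hφ⟩ := exists_unit_iso
    obtain ⟨a, ha⟩ := φ.surjective ⟨g, hg⟩
    have : g ∈ (⊤ : Subgroup U43Mult.G9).map (MM.subtype.comp φ.toMonoidHom) :=
      ⟨a, Subgroup.mem_top _, by show (φ a : P) = g; rw [ha]⟩
    rw [← U43Mult.genG_top, MonoidHom.map_closure] at this
    refine (Subgroup.closure_mono ?_) this
    rintro _ ⟨_, ⟨x, hx, rfl⟩, rfl⟩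
    exact ⟨x, hx, (hφ x hx).symm⟩
  · rw [Subgroup.closure_le]
    rintro _ ⟨x, -, rfl⟩
    exact unit_mem x

theorem simple_MM : IsSimpleGroup ↥MM := by
  obtain ⟨φ, -⟩ := exists_unit_iso
  have : Nontrivial ↥MM := φ.toEquiv.symm.nontrivial
  exact IsSimpleGroup.isSimpleGroup_of_surjective φ.toMonoidHom φ.surjective

end CfsgLib.McLRankThree
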