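import Cfsg.Agent.McLRankThree.Graph
import Cfsg.Agent.SmallIso.FieldChange

/-! The recognition of the McLaughlin group from its rank 3 action on 275 points. -/

set_option autoImplicit false

namespace CfsgLib.McLRankThree

open CfsgLib.CosetEnum

variable {Ω : Type*} [Fintype Ω] [DecidableEq Ω]

/-- the stabiliser as a group of permutations -/
def stabEquiv (G : Subgroup (Equiv.Perm Ω)) (a : Ω) :
    ↥(pointStab G [a]) ≃* ↥(MulAction.stabilizer G a) where
  toFun g := ⟨⟨g, (mem_pointStab.1 g.2).1⟩, (mem_pointStab.1 g.2).2 a List.mem_cons_self⟩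
  invFun g := ⟨g.1, mem_pointStab.2 ⟨g.1.2, fun p hp => by
    rw [List.mem_singleton.1 hp]; exact g.2⟩⟩
  left_inv _ := rfl
  right_inv _ := rfl
  map_mul' _ _ := rfl

theorem orbit_stab (G : Subgroup (Equiv.Perm Ω)) (a x : Ω) :
    MulAction.orbit (pointStab G [a]) x = MulAction.orbit (MulAction.stabilizer G a) x := by
  ext y
  constructor
  · rintro ⟨g, rfl⟩; exact ⟨stabEquiv G a g, rfl⟩
  · rintro ⟨g, rfl⟩; exact ⟨(stabEquiv G a).symm g, rfl⟩

theorem stab_iso {K : Type} [Field K] [Fintype K] (hK : Fintype.card K = 9) :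
    Nonempty (Cfsg.PSU 4 K 3 ≃* ↥MM) := by
  obtain ⟨φ, -⟩ := exists_unit_iso
  exact ⟨(CfsgLib.FieldChange.psuEquiv
    (FiniteField.ringEquivOfCardEq (K := K) (K' := U43Mult.GF9)
      (by rw [hK, U43Mult.GF9.card_eq])) 4 3).trans φ⟩

theorem isoMcL (hΩ : Fintype.card Ω = 275) (G : Subgroup (Equiv.Perm Ω))
    [MulAction.IsPretransitive G Ω] (a : Ω) (K : Type) [Field K] [Fintype K]
    (hK : Fintype.card K = 9)
    (e : MulAction.stabilizer G a ≃* Cfsg.PSU 4 K 3) (b c : Ω)
    (hb : (MulAction.orbit (MulAction.stabilizer G a) b).ncard = 112)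
    (hc : (MulAction.orbit (MulAction.stabilizer G a) c).ncard = 162) :
    Cfsg.Spor.IsoMcL G := by
  obtain ⟨i⟩ := stab_iso hK
  let th0 : ↥(pointStab G [a]) →* P :=
    MM.subtype.comp (((stabEquiv G a).trans e).trans i).toMonoidHom
  have hr0 : th0.range = MM := by
    rw [MonoidHom.range_comp, MonoidHom.range_eq_top.2 (MulEquiv.surjective _),
      ← MonoidHom.range_eq_map, Subgroup.range_subtype]
  have hi0 : Function.Injective th0 :=
    Subtype.val_injective.comp (MulEquiv.injective _)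
  have tr : ∀ x y : Ω, ∃ g ∈ G, g x = y := fun x y => by
    obtain ⟨g, hg⟩ := MulAction.exists_smul_eq G x y
    exact ⟨g, g.2, hg⟩
  let S0 : Setting Ω := ⟨G, tr, hΩ, a, th0, hi0, hr0, b, c,
    by rw [orbit_stab]; exact hb, by rw [orbit_stab]; exact hc⟩
  obtain ⟨m, hm, hmb⟩ := class_one (S0.img_le S0.b) (by rw [S0.card_img, S0.card_stab_b])
  let th1 : ↥(pointStab G [a]) →* P := (MulAut.conj m⁻¹).toMonoidHom.comp th0
  have hr1 : th1.range = MM := by
    rw [MonoidHom.range_comp, hr0]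
    exact cj_mem_eq (inv_mem hm)
  have hi1 : Function.Injective th1 := (MulAut.conj m⁻¹).injective.comp hi0
  let S : Setting Ω := ⟨G, tr, hΩ, a, th1, hi1, hr1, b, c,
    by rw [orbit_stab]; exact hb, by rw [orbit_stab]; exact hc⟩
  have hS : S.img S.b = PQ0 := by
    have h : S.img b = cj m⁻¹ (S0.img b) :=
      (Subgroup.map_map ((pointStab G [b, a]).subgroupOf (pointStab G [a]))
        (MulAut.conj m⁻¹).toMonoidHom th0).symm
    rw [show S.b = b from rfl, h, show S0.img b = cj m PQ0 from hmb, cj_inv_cancel]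
  obtain ⟨f⟩ := S.iso_KK hS
  obtain ⟨j⟩ := McLCover.nonempty_equiv
  exact ⟨f.trans j⟩

end CfsgLib.McLRankThree
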