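import Cfsg.Agent.McLRankThree.Checks

/-! The sets meeting every line in two points: a certified search. -/

set_option autoImplicit false
set_option maxRecDepth 100000

namespace CfsgLib.McLRankThree

open CfsgLib.CosetEnum

theorem bitN_eq (m j : ℕ) : bitN m j = m.testBit j := by
  rw [Bool.eq_iff_iff, bitN, Nat.beq_eq, Nat.testBit, Nat.shiftRight_eq_div_pow]
  simp [Nat.and_comm, Nat.and_one_is_mod]

/-- the number of marked points of a line -/
noncomputable def cnt4 (f : ℕ → Bool) (l : List ℕ) : ℕ :=
  cond (f (l.getD 0 0)) 1 0 + cond (f (l.getD 1 0)) 1 0 + cond (f (l.getD 2 0)) 1 0 +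
    cond (f (l.getD 3 0)) 1 0

/-- the mask of a line -/
noncomputable def lineMask (l : List ℕ) : ℕ :=
  Nat.lor (Nat.lor (1 <<< l.getD 0 0) (1 <<< l.getD 1 0))
    (Nat.lor (1 <<< l.getD 2 0) (1 <<< l.getD 3 0))

/-- the leaf is the image of a representative -/
noncomputable def leafOK (j I O : ℕ) : Bool :=
  let e := leaves.getD j (0, [])
  okW e.2 && Nat.blt e.1 4 && (actN e.2 2 == 2) && allBelow (fun i => !bitN maskOne i ||
    ((bitN I i || bitN O i) &&
      (bitN I i == bitN (famReps.getD e.1 0) (actN e.2.reverse i)))) 275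

/-- the walk through the tree: one more than the position after the subtree, or zero -/
noncomputable def runTree (fuel : ℕ) : ℕ → ℕ → ℕ → ℕ :=
  Nat.rec (motive := fun _ => ℕ → ℕ → ℕ → ℕ) (fun _ _ _ => 0)
    (fun _ ih pos I O =>
      let e := slot treeTab 11 pos
      let v := e >>> 2
      Bool.rec
        (Bool.rec
          (Bool.rec
            (cond (Nat.blt v lines.length && (Nat.blt 2 (cnt4 (bitN I) (lines.getD v [])) ||
              Nat.blt 2 (cnt4 (bitN O) (lines.getD v [])))) (pos + 2) 0)
            (cond (leafOK v I O) (pos + 2) 0)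
            (Nat.beq (Nat.land e 3) 2))
          (Nat.rec 0 (fun r _ => ih r I (Nat.lor O (1 <<< v)))
            (ih (pos + 1) (Nat.lor I (1 <<< v)) O))
          (Nat.beq (Nat.land e 3) 1))
        (cond (Nat.beq (cnt4 (bitN I) (lines.getD v [])) 2)
          (ih (pos + 1) I (Nat.lor O (Nat.xor (lineMask (lines.getD v []))
            (Nat.land (lineMask (lines.getD v [])) I))))
          (cond (Nat.beq (cnt4 (bitN O) (lines.getD v [])) 2)
            (ih (pos + 1) (Nat.lor I (Nat.xor (lineMask (lines.getD v []))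
              (Nat.land (lineMask (lines.getD v [])) O))) O)
            0))
        (Nat.beq (Nat.land e 3) 0))
    fuel

theorem tree_ok : Nat.beq (runTree 1000 0 (1 <<< qPt) 0) (treeLen + 1) = true := by decide +kernel

/-- a set meeting every line in two points -/
def IsHalf (Y : ℕ → Bool) : Prop := ∀ l ∈ lines, cnt4 Y l = 2

theorem half_line {Y : ℕ → Bool} (hY : IsHalf Y) {I O : ℕ} (hI : ∀ i, bitN I i = true → Y i = true)
    (hO : ∀ i, bitN O i = true → Y i = false) (v : ℕ) :
    v < lines.length →
      cnt4 (bitN I) (lines.getD v []) ≤ 2 ∧ cnt4 (bitN O) (lines.getD v []) ≤ 2 := by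
  intro hv
  · have hl := hY _ (List.getElem_mem hv)
    rw [List.getD_eq_getElem _ _ hv]
    generalize lines[v] = l at hl
    simp only [cnt4] at hl ⊢
    have key : ∀ x, (bitN I x = true → Y x = true) ∧ (bitN O x = true → Y x = false) :=
      fun x => ⟨hI x, hO x⟩
    obtain ⟨a1, a2⟩ := key (l.getD 0 0)
    obtain ⟨b1, b2⟩ := key (l.getD 1 0)
    obtain ⟨c1, c2⟩ := key (l.getD 2 0)
    obtain ⟨d1, d2⟩ := key (l.getD 3 0)
    generalize Y (l.getD 0 0) = ya, Y (l.getD 1 0) = yb, Y (l.getD 2 0) = yc, Y (l.getD 3 0) = yd,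
      bitN I (l.getD 0 0) = ia, bitN I (l.getD 1 0) = ib, bitN I (l.getD 2 0) = ic,
      bitN I (l.getD 3 0) = id', bitN O (l.getD 0 0) = oa, bitN O (l.getD 1 0) = ob,
      bitN O (l.getD 2 0) = oc, bitN O (l.getD 3 0) = od at *
    revert a1 a2 b1 b2 c1 c2 d1 d2 hl
    cases ya <;> cases yb <;> cases yc <;> cases yd <;> cases ia <;> cases ib <;> cases ic <;>
      cases id' <;> simp <;> cases oa <;> cases ob <;> cases oc <;> cases od <;> simp

theorem lineMask_bit {l : List ℕ} {i : ℕ} (h : (lineMask l).testBit i = true) :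
    i = l.getD 0 0 ∨ i = l.getD 1 0 ∨ i = l.getD 2 0 ∨ i = l.getD 3 0 := by
  simp only [lineMask, Nat.lor_eq, Nat.testBit_lor, Bool.or_eq_true, Nat.one_shiftLeft,
    Nat.testBit_two_pow, decide_eq_true_eq] at h
  omega

theorem forced_out {Y : ℕ → Bool} {I : ℕ} (hI : ∀ i, bitN I i = true → Y i = true) {l : List ℕ}
    (hl : cnt4 Y l = 2) (h2 : cnt4 (bitN I) l = 2) {i : ℕ}
    (hi : i = l.getD 0 0 ∨ i = l.getD 1 0 ∨ i = l.getD 2 0 ∨ i = l.getD 3 0)
    (hn : bitN I i = false) : Y i = false := by
  simp only [cnt4] at hl h2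
  have a1 := hI (l.getD 0 0)
  have b1 := hI (l.getD 1 0)
  have c1 := hI (l.getD 2 0)
  have d1 := hI (l.getD 3 0)
  rcases hi with rfl | rfl | rfl | rfl <;> rw [hn] at h2 <;> revert a1 b1 c1 d1 hl h2 <;>
    generalize Y (l.getD 0 0) = ya, Y (l.getD 1 0) = yb, Y (l.getD 2 0) = yc,
      Y (l.getD 3 0) = yd, bitN I (l.getD 0 0) = ia, bitN I (l.getD 1 0) = ib,
      bitN I (l.getD 2 0) = ic, bitN I (l.getD 3 0) = id' <;>
    cases ya <;> cases yb <;> cases yc <;> cases yd <;> cases ia <;> cases ib <;> cases ic <;>
    cases id' <;> simp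

theorem forced_in {Y : ℕ → Bool} {O : ℕ} (hO : ∀ i, bitN O i = true → Y i = false) {l : List ℕ}
    (hl : cnt4 Y l = 2) (h2 : cnt4 (bitN O) l = 2) {i : ℕ}
    (hi : i = l.getD 0 0 ∨ i = l.getD 1 0 ∨ i = l.getD 2 0 ∨ i = l.getD 3 0)
    (hn : bitN O i = false) : Y i = true := by
  simp only [cnt4] at hl h2
  have a1 := hO (l.getD 0 0)
  have b1 := hO (l.getD 1 0)
  have c1 := hO (l.getD 2 0)
  have d1 := hO (l.getD 3 0)
  rcases hi with rfl | rfl | rfl | rfl <;> rw [hn] at h2 <;> revert a1 b1 c1 d1 hl h2 <;>
    generalize Y (l.getD 0 0) = ya, Y (l.getD 1 0) = yb, Y (l.getD 2 0) = yc,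
      Y (l.getD 3 0) = yd, bitN O (l.getD 0 0) = ia, bitN O (l.getD 1 0) = ib,
      bitN O (l.getD 2 0) = ic, bitN O (l.getD 3 0) = id' <;>
    cases ya <;> cases yb <;> cases yc <;> cases yd <;> cases ia <;> cases ib <;> cases ic <;>
    cases id' <;> simp

theorem runTree_succ (n pos I O : ℕ) : runTree (n + 1) pos I O =
      (Bool.rec
        (Bool.rec
          (Bool.rec
            (cond (Nat.blt (slot treeTab 11 pos >>> 2) lines.length &&
              (Nat.blt 2 (cnt4 (bitN I) (lines.getD (slot treeTab 11 pos >>> 2) [])) ||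
              Nat.blt 2 (cnt4 (bitN O) (lines.getD (slot treeTab 11 pos >>> 2) [])))) (pos + 2) 0)
            (cond (leafOK (slot treeTab 11 pos >>> 2) I O) (pos + 2) 0)
            (Nat.beq (Nat.land (slot treeTab 11 pos) 3) 2))
          (Nat.rec 0 (fun r _ => runTree n r I (Nat.lor O (1 <<< (slot treeTab 11 pos >>> 2))))
            (runTree n (pos + 1) (Nat.lor I (1 <<< (slot treeTab 11 pos >>> 2))) O))
          (Nat.beq (Nat.land (slot treeTab 11 pos) 3) 1))
        (cond (Nat.beq (cnt4 (bitN I) (lines.getD (slot treeTab 11 pos >>> 2) [])) 2)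
          (runTree n (pos + 1) I (Nat.lor O (Nat.xor
            (lineMask (lines.getD (slot treeTab 11 pos >>> 2) []))
            (Nat.land (lineMask (lines.getD (slot treeTab 11 pos >>> 2) [])) I))))
          (cond (Nat.beq (cnt4 (bitN O) (lines.getD (slot treeTab 11 pos >>> 2) [])) 2)
            (runTree n (pos + 1) (Nat.lor I (Nat.xor
              (lineMask (lines.getD (slot treeTab 11 pos >>> 2) []))
              (Nat.land (lineMask (lines.getD (slot treeTab 11 pos >>> 2) [])) O))) O)
            0))
        (Nat.beq (Nat.land (slot treeTab 11 pos) 3) 0)) := rfl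

theorem runTree_sound {Y : ℕ → Bool} (hY : IsHalf Y) : ∀ (n pos I O : ℕ),
    runTree n pos I O ≠ 0 → (∀ i, bitN I i = true → Y i = true) →
    (∀ i, bitN O i = true → Y i = false) →
    ∃ f < 4, ∃ w, okW w = true ∧ actN w 2 = 2 ∧
      ∀ i < 275, bitN maskOne i = true → Y i = bitN (famReps.getD f 0) (actN w.reverse i) := by
  intro n
  induction n with
  | zero => intro pos I O h; exact absurd rfl h
  | succ n ih =>
    intro pos I O h hI hO
    rw [runTree_succ] at h
    set v := slot treeTab 11 pos >>> 2
    set l := lines.getD v []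
    have hlor : ∀ {m m' i : ℕ}, bitN (Nat.lor m m') i = true → bitN m i = true ∨ bitN m' i = true := by
      intro m m' i hi
      simpa [bitN_eq, Nat.lor_eq] using hi
    have hline : ∀ {m}, cnt4 (bitN m) l = 2 → l ∈ lines := by
      intro m h2
      rcases lt_or_ge v lines.length with hv | hv
      · rw [show l = lines.getD v [] from rfl, List.getD_eq_getElem _ _ hv]; exact List.getElem_mem hv
      · exfalso
        rw [show l = lines.getD v [] from rfl, List.getD_eq_default _ _ hv] at h2
        simp only [cnt4, List.getD_nil] at h2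
        cases hb : bitN m 0 <;> simp [hb] at h2
    cases h0 : Nat.beq (Nat.land (slot treeTab 11 pos) 3) 0
    · rw [h0] at h
      cases h1 : Nat.beq (Nat.land (slot treeTab 11 pos) 3) 1
      · rw [h1] at h
        cases h2 : Nat.beq (Nat.land (slot treeTab 11 pos) 3) 2
        · rw [h2] at h
          exfalso
          refine h ?_
          rcases lt_or_ge v lines.length with hv | hv
          · obtain ⟨g1, g2⟩ : cnt4 (bitN I) l ≤ 2 ∧ cnt4 (bitN O) l ≤ 2 := half_line hY hI hO v hv
            have e1 : Nat.blt 2 (cnt4 (bitN I) l) = false := by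
              rw [Bool.eq_false_iff, ne_eq, Nat.blt, Nat.ble_eq]; omega
            have e2 : Nat.blt 2 (cnt4 (bitN O) l) = false := by
              rw [Bool.eq_false_iff, ne_eq, Nat.blt, Nat.ble_eq]; omega
            rw [e1, e2]; simp
          · have e : Nat.blt v lines.length = false := by
              rw [Bool.eq_false_iff, ne_eq, Nat.blt, Nat.ble_eq]; omega
            rw [e]; simp
        · rw [h2] at h
          cases hl : leafOK v I O
          · exfalso; exact h (by simp [hl])
          · simp only [leafOK, Bool.and_eq_true, Bool.or_eq_true, Model.allBelow_iff, Nat.blt,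
              Nat.ble_eq, beq_iff_eq, Bool.not_eq_true'] at hl
            obtain ⟨⟨⟨hok, hf⟩, hfix⟩, hall⟩ := hl
            refine ⟨_, hf, _, hok, hfix, fun i hi him => ?_⟩
            rcases hall i hi with hc | ⟨hdec, heq⟩
            · rw [him] at hc; exact Bool.noConfusion hc
            · rw [← heq]
              cases hb : bitN I i
              · exact hO i (hdec.resolve_left (by simp [hb]))
              · exact hI i hb
      · rw [h1] at h
        cases hr : runTree n (pos + 1) (Nat.lor I (1 <<< v)) O with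
        | zero => rw [hr] at h; exact absurd rfl h
        | succ r =>
          rw [hr] at h
          cases hy : Y v
          · refine ih r I _ h hI fun i hi => ?_
            rcases hlor hi with hi | hi
            · exact hO i hi
            · rw [bitN_eq, Nat.one_shiftLeft, Nat.testBit_two_pow, decide_eq_true_eq] at hi
              exact hi ▸ hy
          · refine ih (pos + 1) _ O (by rw [hr]; exact Nat.succ_ne_zero r) (fun i hi => ?_) hO
            rcases hlor hi with hi | hi
            · exact hI i hi
            · rw [bitN_eq, Nat.one_shiftLeft, Nat.testBit_two_pow, decide_eq_true_eq] at hi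
              exact hi ▸ hy
    · rw [h0] at h
      cases hi2 : Nat.beq (cnt4 (bitN I) l) 2
      · rw [hi2, cond_false] at h
        cases ho2 : Nat.beq (cnt4 (bitN O) l) 2
        · rw [ho2] at h; exact absurd rfl h
        · rw [ho2] at h
          have h2 : cnt4 (bitN O) l = 2 := Nat.eq_of_beq_eq_true ho2
          refine ih _ _ _ h (fun i hi => ?_) hO
          rcases hlor hi with hi | hi
          · exact hI i hi
          · rw [bitN_eq, Nat.xor_eq, Nat.land_eq, Nat.testBit_xor, Nat.testBit_land] at hi
            cases hm : (lineMask l).testBit i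
            · simp [hm] at hi
            · simp only [hm, Bool.true_and, Bool.true_xor, Bool.not_eq_true'] at hi
              exact forced_in hO (hY l (hline h2)) h2 (lineMask_bit hm) (by rw [bitN_eq]; exact hi)
      · rw [hi2] at h
        have h2 : cnt4 (bitN I) l = 2 := Nat.eq_of_beq_eq_true hi2
        refine ih _ _ _ h hI (fun i hi => ?_)
        rcases hlor hi with hi | hi
        · exact hO i hi
        · rw [bitN_eq, Nat.xor_eq, Nat.land_eq, Nat.testBit_xor, Nat.testBit_land] at hi
          cases hm : (lineMask l).testBit i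
          · simp [hm] at hi
          · simp only [hm, Bool.true_and, Bool.true_xor, Bool.not_eq_true'] at hi
            exact forced_out hI (hY l (hline h2)) h2 (lineMask_bit hm) (by rw [bitN_eq]; exact hi)

/-- A set through the base point meeting every line in two points is in one of four families. -/
theorem half_classify {Y : ℕ → Bool} (hY : IsHalf Y) (hq : Y qPt = true) :
    ∃ f < 4, ∃ w, okW w = true ∧ actN w 2 = 2 ∧
      ∀ i < 275, bitN maskOne i = true → Y i = bitN (famReps.getD f 0) (actN w.reverse i) := by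
  refine runTree_sound hY 1000 0 (1 <<< qPt) 0 ?_ (fun i hi => ?_) (fun i hi => ?_)
  · rw [Nat.eq_of_beq_eq_true tree_ok]; exact Nat.succ_ne_zero _
  · rw [bitN_eq, Nat.one_shiftLeft, Nat.testBit_two_pow, decide_eq_true_eq] at hi
    exact hi ▸ hq
  · rw [bitN_eq, Nat.zero_testBit] at hi; exact Bool.noConfusion hi

end CfsgLib.McLRankThree
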