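import Cfsg.Agent.McLRankThree.Group

/-! Orbits of the stabiliser, adjacency, and the class of the point stabilisers of index 112. -/

set_option autoImplicit false
set_option maxRecDepth 100000

namespace CfsgLib.McLRankThree

open CfsgLib.CosetEnum

/-- adjacency -/
def Adj (i j : Pt) : Prop := bitN (nbMask i) j = true

theorem bitN_mask {i : Pt} : bitN maskOne i = true ↔ lab i = 1 := by
  have h := (Model.allBelow_iff _ _).1 mask_one i i.2
  rw [beq_iff_eq] at h
  rw [h, beq_iff_eq]

theorem lab_cases (i : Pt) : i = P0 ∨ lab i = 1 ∨ lab i = 2 := by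
  have h := (Model.allBelow_iff _ _).1 lab_split.1 i i.2
  simp only [Bool.or_eq_true, Bool.and_eq_true, beq_iff_eq] at h
  rcases h with (⟨-, h⟩ | h) | h
  exacts [Or.inl (Fin.ext (h.trans P0_val.symm)), Or.inr (Or.inl h), Or.inr (Or.inr h)]

theorem lab_P0 : lab (P0 : Pt) = 0 := by rw [P0_val]; exact lab_split.2.2.2.1

theorem lab_Q0 : lab (Q0 : Pt) = 1 := by rw [Q0_val]; exact lab_split.2.2.2.2.1

theorem lab_W0 : lab (W0 : Pt) = 2 := by rw [W0_val]; exact lab_split.2.2.2.2.2.1

theorem ncard_cnt (f : ℕ → Bool) : {i : Pt | f i = true}.ncard = cnt f := by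
  classical
  have h : ∀ n, Nat.rec (motive := fun _ => ℕ) 0 (fun j r => Bool.rec r (r + 1) (f j)) n =
      ((Finset.range n).filter fun j => f j = true).card := by
    intro n
    induction n with
    | zero => rfl
    | succ n ih =>
      rw [Finset.range_add_one, Finset.filter_insert]
      cases hb : f n <;> simp [hb, ih, Finset.card_insert_of_notMem]
  rw [cnt, h, ← Set.ncard_coe_finset, ← Set.ncard_image_of_injective _ Fin.val_injective]
  congr 1
  ext j
  simp only [Set.mem_image, Set.mem_ofPred_eq, Finset.coe_filter, Finset.mem_range]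
  exact ⟨fun ⟨i, hi, e⟩ => e ▸ ⟨i.2, hi⟩, fun ⟨h1, h2⟩ => ⟨⟨j, h1⟩, h2, rfl⟩⟩

theorem ncard_lab1 : {i : Pt | lab i = 1}.ncard = 112 := by
  rw [← lab_split.2.1, ← ncard_cnt]; simp only [beq_iff_eq]

theorem ncard_lab2 : {i : Pt | lab i = 2}.ncard = 162 := by
  rw [← lab_split.2.2.1, ← ncard_cnt]; simp only [beq_iff_eq]

theorem orbit_of_cert (C : Cert) {l : ℕ} (hC : C.allOK l stabWords = true)
    (hp : C.parts = 1) {i j : Pt} (hi : lab i = l) (hj : lab j = l) :
    ∃ g ∈ MM, g i = j := by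
  classical
  have hsw : ∀ w ∈ stabWords, el w ∈ MM ∧ okW w = true := fun w hw => el_mem_MM (by simp [hw])
  let Sub : Subgroup P := Subgroup.closure {g | ∃ w ∈ stabWords, el w = g}
  have hle : Sub ≤ MM := by
    rw [Subgroup.closure_le]
    rintro _ ⟨w, hw, rfl⟩
    exact (hsw w hw).1
  let Y : Set Pt := {k | lab k = l ∧ k ∈ MulAction.orbit Sub i}
  have hin : i ∈ Y := ⟨hi, MulAction.mem_orbit_self _⟩
  have hlab : ∀ w ∈ stabWords, ∀ k, lab (el w k : Pt) = l ↔ lab k = l := fun w hw k => by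
    have h := stab_lab w hw k
    rw [h]
  obtain ⟨m, hm, hY, -⟩ := C.exists_mask hC (fun w hw => (hsw w hw).2) Y (fun k hk => hk.1)
    (fun w hw k => by
      refine and_congr (hlab w hw k) ?_
      have hwm : el w ∈ Sub := Subgroup.subset_closure ⟨w, hw, rfl⟩
      constructor
      · intro h
        have := MulAction.mem_orbit_iff.1 h
        obtain ⟨g, hg⟩ := this
        exact MulAction.mem_orbit_iff.2 ⟨⟨el w, hwm⟩⁻¹ * g, by rw [mul_smul, hg]; exact inv_smul_smul (⟨el w, hwm⟩ : Sub) k⟩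
      · intro h
        obtain ⟨g, hg⟩ := MulAction.mem_orbit_iff.1 h
        exact MulAction.mem_orbit_iff.2 ⟨⟨el w, hwm⟩ * g, by rw [mul_smul, hg]; rfl⟩)
  have hj' : j ∈ Y := by
    rw [hY]
    refine ⟨hj, ?_⟩
    have h1 := ((hY i).1 hin).2
    have hb := C.part_lt hC hi
    have hb' := C.part_lt hC hj
    rw [hp] at hb hb'
    rw [show C.part (C.pos j) = C.part (C.pos i) by omega]
    exact h1
  obtain ⟨g, hg⟩ := hj'.2
  exact ⟨g, hle g.2, hg⟩
where
  stab_lab (w : List ℕ) (hw : w ∈ stabWords) (k : Pt) : lab (el w k : Pt) = lab k := by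
    have h : allK (fun w => allBelow (fun k => lab (actN w k) == lab k) 275) stabWords = true := by
      decide +kernel
    rw [Model.allK_iff] at h
    have := (Model.allBelow_iff _ _).1 (h w hw) k k.2
    rw [el_val (el_mem_MM (by simp [hw])).2]
    exact beq_iff_eq.1 this

theorem lab_of_mem {g : P} (hg : g ∈ MM) (k : Pt) : lab (g k : Pt) = lab k := by
  have h : allBelow (fun x => allBelow (fun k => lab (actN (unitWords.getD x []) k) == lab k) 275) 6
      = true := by decide +kernel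
  rw [MM_eq_closure] at hg
  suffices hle : ∀ k : Pt, lab (g k : Pt) = lab k from hle k
  induction hg using Subgroup.closure_induction with
  | mem y hy =>
    obtain ⟨x, hx, rfl⟩ := hy
    intro k
    have := (Model.allBelow_iff _ _).1 ((Model.allBelow_iff _ _).1 h x hx) k k.2
    rw [unitGen, el_val (ok_getD (fun w hw => (el_mem_MM (by simp [hw])).2) x)]
    exact beq_iff_eq.1 this
  | one => intro k; rfl
  | mul a b _ _ ha hb => intro k; rw [Equiv.Perm.mul_apply, ha, hb]
  | inv a _ ha => intro k; have := ha (a⁻¹ k); simpa using this.symm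

theorem trans_one {i j : Pt} (hi : lab i = 1) (hj : lab j = 1) : ∃ g ∈ MM, g i = j :=
  orbit_of_cert certOne certs_ok.1 rfl hi hj

theorem trans_two {i j : Pt} (hi : lab i = 2) (hj : lab j = 2) : ∃ g ∈ MM, g i = j :=
  orbit_of_cert certTwo certs_ok.2.1 rfl hi hj

theorem ncard_orbit_MM {i : Pt} {l n : ℕ} (hi : lab i = l) (hl : l = 1 ∧ n = 112 ∨ l = 2 ∧ n = 162) :
    (MulAction.orbit MM i).ncard = n := by
  have e : MulAction.orbit MM i = {k : Pt | lab k = l} := by
    ext k
    constructor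
    · rintro ⟨g, rfl⟩; exact (lab_of_mem g.2 i).trans hi
    · intro hk
      rcases hl with ⟨rfl, -⟩ | ⟨rfl, -⟩
      · obtain ⟨g, hg, e⟩ := trans_one hi hk; exact ⟨⟨g, hg⟩, e⟩
      · obtain ⟨g, hg, e⟩ := trans_two hi hk; exact ⟨⟨g, hg⟩, e⟩
  rcases hl with ⟨rfl, rfl⟩ | ⟨rfl, rfl⟩
  · rw [e, ncard_lab1]
  · rw [e, ncard_lab2]

theorem card_stab_one {i : Pt} (hi : lab i = 1) : Nat.card (pointStab KK [i, P0]) = 29160 := by
  have h := card_pointStab_eq KK [P0] i
  rw [show pointStab KK [P0] = MM from rfl, ncard_orbit_MM hi (Or.inl ⟨rfl, rfl⟩), card_MM] at h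
  have h' : 112 * Nat.card (pointStab KK [i, P0]) = 3265920 := h
  omega

theorem card_stab_two {i : Pt} (hi : lab i = 2) : Nat.card (pointStab KK [i, P0]) = 20160 := by
  have h := card_pointStab_eq KK [P0] i
  rw [show pointStab KK [P0] = MM from rfl, ncard_orbit_MM hi (Or.inr ⟨rfl, rfl⟩), card_MM] at h
  have h' : 162 * Nat.card (pointStab KK [i, P0]) = 3265920 := h
  omega

theorem cj_pointStab {g : P} (hg : g ∈ KK) (i j : Pt) :
    pointStab KK [g i, g j] = cj g (pointStab KK [i, j]) := by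
  ext h
  simp only [mem_cj, mem_pointStab, List.mem_cons, List.not_mem_nil, or_false, forall_eq_or_imp,
    forall_eq, Equiv.Perm.mul_apply]
  have : h ∈ KK ↔ g⁻¹ * h * g ∈ KK :=
    ⟨fun hh => mul_mem (mul_mem (inv_mem hg) hh) hg,
      fun hh => by simpa [mul_assoc] using mul_mem (mul_mem hg hh) (inv_mem hg)⟩
  rw [this, Equiv.Perm.inv_eq_iff_eq, Equiv.Perm.inv_eq_iff_eq]

theorem adj_iff (i j : Pt) : Adj i j ↔ Nat.card (pointStab KK [j, i]) = 29160 := by
  have h := (Model.allBelow_iff _ _).1 move_ok i i.2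
  simp only [moveOK, Bool.and_eq_true, beq_iff_eq, Model.allBelow_iff] at h
  obtain ⟨⟨hok, hi⟩, hall⟩ := h
  set t := moveWords.getD i []
  have hti : el t i = P0 := Fin.ext (by rw [el_val hok, hi, P0_val])
  have hc : Nat.card (pointStab KK [j, i]) = Nat.card (pointStab KK [el t j, P0]) := by
    rw [← hti, cj_pointStab (el_mem_KK hok), card_cj]
  rw [Adj, hall j j.2, beq_iff_eq, ← el_val hok, hc]
  rcases lab_cases (el t j) with h | h | h
  · rw [h, lab_P0]
    have : pointStab KK [P0, P0] = MM := by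
      ext g; simp [mem_pointStab, mem_MM]
    rw [this, card_MM]
    omega
  · exact iff_of_true h (card_stab_one h)
  · rw [card_stab_two h]; omega

theorem adj_symm {i j : Pt} : Adj i j ↔ Adj j i := by
  have : pointStab KK [i, j] = pointStab KK [j, i] := by
    ext g
    simp only [mem_pointStab, List.mem_cons, List.not_mem_nil, or_false, forall_eq_or_imp,
      forall_eq]
    tauto
  rw [adj_iff, adj_iff, this]

theorem adj_map {g : P} (hg : g ∈ KK) (i j : Pt) : Adj (g i) (g j) ↔ Adj i j := by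
  rw [adj_iff, adj_iff, cj_pointStab hg, card_cj]

theorem adj_P0 (j : Pt) : Adj P0 j ↔ lab j = 1 := by
  rw [adj_iff]
  rcases lab_cases j with rfl | h | h
  · have : pointStab KK [P0, P0] = MM := by
      ext g; simp [mem_pointStab, mem_MM]
    rw [this, card_MM, lab_P0]; omega
  · exact iff_of_true (card_stab_one h) h
  · rw [card_stab_two h, h]; omega

/-- the stabiliser of the point in the smaller suborbit -/
noncomputable def PQ0 : Subgroup P := MM ⊓ MulAction.stabilizer P Q0

/-- the stabiliser of the point in the larger suborbit -/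
noncomputable def PW0 : Subgroup P := MM ⊓ MulAction.stabilizer P W0

theorem card_PQ0 : Nat.card PQ0 = 29160 := card_stab_one lab_Q0

theorem card_PW0 : Nat.card PW0 = 20160 := card_stab_two lab_W0

theorem qWords_mem {w : List ℕ} (hw : w ∈ qWords) : el w ∈ PQ0 ∧ okW w = true := by
  obtain ⟨h1, h2⟩ := el_mem_MM (w := w) (by simp [hw])
  have h := fix_q
  rw [Model.allK_iff] at h
  refine ⟨⟨h1, Fin.ext ?_⟩, h2⟩
  show ((el w Q0 : Pt) : ℕ) = _
  rw [el_val h2, Q0_val]
  exact beq_iff_eq.1 (h w hw)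

theorem wWords_mem {w : List ℕ} (hw : w ∈ wWords) : el w ∈ PW0 ∧ okW w = true := by
  obtain ⟨h1, h2⟩ := el_mem_MM (w := w) (by simp [hw])
  have h := fix_w
  rw [Model.allK_iff] at h
  refine ⟨⟨h1, Fin.ext ?_⟩, h2⟩
  show ((el w W0 : Pt) : ℕ) = _
  rw [el_val h2, W0_val]
  exact beq_iff_eq.1 (h w hw)

theorem syl_step {i : ℕ} (hi : i < 6) :
    el (sylWords.getD i []) ^ 9 = 1 ∧
      el (sylWords.getD i []) ∈ PQ0 ∧
      cj (el (sylWords.getD i [])) (Subgroup.closure {g | ∃ w ∈ sylWords.take i, el w = g}) ≤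
        Subgroup.closure {g | ∃ w ∈ sylWords.take i, el w = g} := by
  have h := (Model.allBelow_iff _ _).1 syl_ok.2 i hi
  simp only [sylOK, Bool.and_eq_true, beq_iff_eq, Model.allBelow_iff] at h
  obtain ⟨⟨⟨⟨⟨hok, h2⟩, hq⟩, h9⟩, -⟩, hc⟩ := h
  set u := sylWords.getD i []
  refine ⟨?_, ⟨fix_P0 hok h2, Fin.ext ?_⟩, ?_⟩
  · have := el_eq_of_base (by simp only [okW_append]; exact ⟨⟨⟨⟨⟨⟨⟨⟨hok, hok⟩, hok⟩, hok⟩, hok⟩, hok⟩, hok⟩, hok⟩, hok⟩)
      (okW_iff.2 (by simp)) h9
    simpa [el_append, el_nil, pow_succ, mul_assoc] using this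
  · show ((el u Q0 : Pt) : ℕ) = _
    rw [el_val hok, Q0_val, hq]
  · rw [cj, MonoidHom.map_closure, Subgroup.closure_le]
    rintro _ ⟨_, ⟨v, hv, rfl⟩, rfl⟩
    obtain ⟨j, hj, rfl⟩ := List.mem_iff_getElem.1 hv
    rw [List.length_take] at hj
    have hji : j < i := lt_of_lt_of_le hj (min_le_left _ _)
    have e := hc j hji
    have hs : ∀ w ∈ sylWords, okW w = true := fun w hw => (el_mem_MM (by simp [hw])).2
    rw [List.getD_eq_getElem _ _ (lt_of_lt_of_le hj (min_le_right _ _))] at e
    show el u * el _ * (el u)⁻¹ ∈ _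
    rw [List.getElem_take, ← el_reverse hok, ← el_append, ← el_append, el_eq_of_base
      (okW_append.2 ⟨okW_append.2 ⟨hok, hs _ (List.getElem_mem _)⟩, okW_reverse.2 hok⟩)
      (ok_flat (fun w hw => hs w (List.mem_of_mem_take hw)) _) e]
    exact el_flat_mem (H := Subgroup.closure {g | ∃ w ∈ sylWords.take i, el w = g})
      (fun w hw => Subgroup.subset_closure ⟨w, hw, rfl⟩) _

/-- a 3-subgroup fixing the point in the smaller suborbit -/
noncomputable def PS : Subgroup P := Subgroup.closure {g | ∃ w ∈ sylWords, el w = g}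

theorem PS_le : PS ≤ PQ0 := by
  rw [PS, Subgroup.closure_le]
  rintro _ ⟨w, hw, rfl⟩
  obtain ⟨i, hi, rfl⟩ := List.mem_iff_getElem.1 hw
  have := (syl_step (i := i) (syl_ok.1 ▸ hi)).2.1
  rwa [List.getD_eq_getElem _ _ hi] at this

theorem PS_isPGroup : IsPGroup 3 PS := by
  have key : ∀ i ≤ 6, IsPGroup 3 (Subgroup.closure {g | ∃ w ∈ sylWords.take i, el w = g}) := by
    intro i hi
    induction i with
    | zero =>
      intro x
      have hx := x.2
      simp at hx
      refine ⟨0, ?_⟩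
      rw [pow_zero, pow_one]
      simpa using hx
    | succ i ih =>
      have hl : i < sylWords.length := by rw [syl_ok.1]; omega
      obtain ⟨h9, -, hn⟩ := syl_step (i := i) (by omega)
      have hgd : sylWords.getD i [] = sylWords[i] := List.getD_eq_getElem _ _ hl
      rw [show {g | ∃ w ∈ sylWords.take (i + 1), el w = g} =
        {g | ∃ w ∈ sylWords.take i, el w = g} ∪ {el (sylWords.getD i [])} by
        rw [List.take_succ_eq_append_getElem hl, hgd]
        ext g
        simp only [List.mem_append, List.mem_singleton, Set.mem_ofPred_eq, Set.mem_union,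
          Set.mem_singleton_iff]
        constructor
        · rintro ⟨w, hw | rfl, rfl⟩
          exacts [Or.inl ⟨w, hw, rfl⟩, Or.inr rfl]
        · rintro (⟨w, hw, rfl⟩ | rfl)
          exacts [⟨w, Or.inl hw, rfl⟩, ⟨_, Or.inr rfl, rfl⟩],
        Subgroup.closure_union, ← Subgroup.zpowers_eq_closure]
      have hz : IsPGroup 3 (Subgroup.zpowers (el (sylWords.getD i []))) := by
        intro x
        obtain ⟨k, hk⟩ := Subgroup.mem_zpowers_iff.1 x.2
        refine ⟨2, Subtype.ext ?_⟩
        show (x : P) ^ (3 ^ 2) = 1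
        rw [← hk, ← zpow_natCast, ← zpow_mul, mul_comm, zpow_mul, zpow_natCast]
        rw [show (3 : ℕ) ^ 2 = 9 by norm_num, h9, one_zpow]
      refine (ih (by omega)).to_sup_of_normal_left' hz ?_
      rw [Subgroup.zpowers_le]
      have heq := Subgroup.eq_of_le_of_card_ge hn (card_cj _ _).ge
      refine Subgroup.mem_normalizer_iff.2 fun x => ⟨fun hx => hn (conj_mem_cj hx), fun h => ?_⟩
      rw [← heq] at h
      simpa [mem_cj, mul_assoc] using h
  have := key 6 le_rfl
  rwa [List.take_of_length_le syl_ok.1.le] at this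

/-- Every subgroup of index 112 of the stabiliser fixes a point of the smaller suborbit. -/
theorem class_one {H : Subgroup P} (hH : H ≤ MM) (hc : Nat.card H = 29160) :
    ∃ m ∈ MM, H = cj m PQ0 := by
  obtain ⟨g, hg, hgS⟩ := exists_cj_le (by norm_num : Nat.Prime 3) hH
    (fun x hx => (PS_le hx).1) PS_isPGroup (by rw [hc, card_MM]; decide +kernel)
  set H' := cj g⁻¹ H with hH'
  have hS : PS ≤ H' := cj_le_iff.1 hgS
  have hH'M : H' ≤ MM := cj_le_self (inv_mem hg) hH
  have hc' : Nat.card H' = 29160 := by rw [hH', card_cj, hc]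
  suffices hle : H' ≤ PQ0 by
    refine ⟨g, hg, ?_⟩
    rw [← Subgroup.eq_of_le_of_card_ge hle (by rw [hc', card_PQ0]), hH', cj_cancel_inv]
  -- the orbit of the fixed point
  set O : Set Pt := MulAction.orbit H' Q0
  have hOl : ∀ i ∈ O, lab i = 1 := by
    rintro _ ⟨x, rfl⟩
    exact (lab_of_mem (hH'M x.2) Q0).trans lab_Q0
  have hinv : ∀ w ∈ sylWords, ∀ i, el w i ∈ O ↔ i ∈ O := by
    intro w hw i
    have hwm : el w ∈ H' := hS (Subgroup.subset_closure ⟨w, hw, rfl⟩)
    constructor
    · intro h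
      obtain ⟨x, hx⟩ := MulAction.mem_orbit_iff.1 h
      exact MulAction.mem_orbit_iff.2 ⟨⟨el w, hwm⟩⁻¹ * x, by
        rw [mul_smul, hx]; exact inv_smul_smul (⟨el w, hwm⟩ : H') i⟩
    · intro h
      obtain ⟨x, hx⟩ := MulAction.mem_orbit_iff.1 h
      exact MulAction.mem_orbit_iff.2 ⟨⟨el w, hwm⟩ * x, by rw [mul_smul, hx]; rfl⟩
  have hok : ∀ w ∈ sylWords, okW w = true := fun w hw => (el_mem_MM (by simp [hw])).2
  obtain ⟨m, hm, hO, hn⟩ := certS.exists_mask certs_ok.2.2.1 hok O hOl hinv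
  have hdvd : O.ncard ∣ 29160 := by
    rw [← hc', ← Nat.card_coe_set_eq]
    exact ⟨_, ((Nat.card_prod _ _).symm.trans
      (Nat.card_congr (MulAction.orbitProdStabilizerEquivGroup H' Q0))).symm⟩
  have hq : m.testBit (certS.part (certS.pos qPt)) = true := by
    have := ((hO Q0).1 (MulAction.mem_orbit_self _)).2
    rwa [Q0_val] at this
  have hsum : allBelow (fun m => !(m.testBit (certS.part (certS.pos qPt))) ||
      !(Nat.beq (29160 % certS.count m) 0) || Nat.beq (certS.count m) 1 ||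
        Nat.beq (certS.count m) 4) (2 ^ certS.parts) = true := by decide +kernel
  have h14 := (Model.allBelow_iff _ _).1 hsum m hm
  rw [← hn, hq, Nat.mod_eq_zero_of_dvd hdvd] at h14
  simp only [Bool.not_true, Bool.false_or, Nat.beq_refl, Bool.or_eq_true, Nat.beq_eq] at h14
  intro x hx
  refine ⟨hH'M hx, ?_⟩
  rcases h14 with h14 | h14
  · obtain ⟨a, ha⟩ := Set.ncard_eq_one.1 h14
    have e1 : Q0 ∈ O := MulAction.mem_orbit_self _
    have e2 : x Q0 ∈ O := ⟨⟨x, hx⟩, rfl⟩
    rw [ha] at e1 e2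
    show x Q0 = Q0
    rw [Set.mem_singleton_iff.1 e2, Set.mem_singleton_iff.1 e1]
  · exfalso
    obtain ⟨r, hr, hrq⟩ : ∃ r ∈ O, r ≠ Q0 := by
      by_contra hcon
      push Not at hcon
      have : O.ncard ≤ 1 :=
        (Set.ncard_le_one_iff_subset_singleton (Set.toFinite O)).2 ⟨Q0, fun i hi => hcon i hi⟩
      omega
    -- the stabiliser of both points
    let K : Subgroup P := H' ⊓ MulAction.stabilizer P Q0
    have hKc : 4 * Nat.card K = 29160 := by
      have h := card_pointStab_eq H' [] Q0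
      have e : pointStab H' [Q0] = K := rfl
      rw [e, show pointStab H' ([] : List Pt) = H' from rfl, hc'] at h
      rw [← h14]
      exact h
    have hsubO : MulAction.orbit K r ⊆ O \ {Q0} := by
      rintro _ ⟨k, rfl⟩
      refine ⟨?_, fun e => hrq ((k : P).injective (Eq.trans (Set.mem_singleton_iff.1 e) k.2.2.symm))⟩
      obtain ⟨y, hy⟩ := hr
      exact ⟨⟨(k : P) * y, mul_mem k.2.1 y.2⟩, by rw [← hy]; rfl⟩
    have hk3 : (MulAction.orbit K r).ncard ≤ 3 := by
      refine (Set.ncard_le_ncard hsubO).trans ?_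
      rw [Set.ncard_diff_singleton_of_mem (MulAction.mem_orbit_self Q0), h14]
    -- the orbit of the point stabiliser is large
    have hrl : lab r = 1 := hOl r hr
    have hqok : ∀ w ∈ qWords, okW w = true := fun w hw => (qWords_mem hw).2
    have hqinv : ∀ w ∈ qWords, ∀ i, el w i ∈ MulAction.orbit PQ0 r ↔ i ∈ MulAction.orbit PQ0 r := by
      intro w hw i
      have hwm := (qWords_mem hw).1
      constructor
      · intro h
        obtain ⟨y, hy⟩ := MulAction.mem_orbit_iff.1 h
        exact MulAction.mem_orbit_iff.2 ⟨⟨el w, hwm⟩⁻¹ * y, by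
          rw [mul_smul, hy]; exact inv_smul_smul (⟨el w, hwm⟩ : PQ0) i⟩
      · intro h
        obtain ⟨y, hy⟩ := MulAction.mem_orbit_iff.1 h
        exact MulAction.mem_orbit_iff.2 ⟨⟨el w, hwm⟩ * y, by rw [mul_smul, hy]; rfl⟩
    obtain ⟨m', hm', hR, hn'⟩ := certQ.exists_mask certs_ok.2.2.2.1 hqok (MulAction.orbit PQ0 r)
      (by rintro _ ⟨y, rfl⟩; exact (lab_of_mem y.2.1 r).trans hrl) hqinv
    have hbig : 30 ≤ (MulAction.orbit PQ0 r).ncard := by
      have hr' := ((hR r).1 (MulAction.mem_orbit_self _)).2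
      have hnq : ¬ m'.testBit (certQ.part (certQ.pos qPt)) = true := fun hb => by
        have : Q0 ∈ MulAction.orbit PQ0 r := (hR Q0).2 ⟨lab_Q0, by rw [Q0_val]; exact hb⟩
        obtain ⟨y, hy⟩ := this
        exact hrq ((y : P).injective (hy.trans y.2.2.symm))
      have hparts : allBelow (fun m => m.testBit (certQ.part (certQ.pos qPt)) || Nat.beq m 0 ||
          Nat.ble 30 (certQ.count m)) (2 ^ certQ.parts) = true := by decide +kernel
      have h := (Model.allBelow_iff _ _).1 hparts m' hm'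
      simp only [Bool.not_eq_true] at hnq
      simp only [hnq, Bool.false_or, Bool.or_eq_true, Nat.beq_eq, Nat.ble_eq] at h
      rcases h with h | h
      · rw [h, Nat.zero_testBit] at hr'; exact Bool.noConfusion hr'
      · rw [hn']; exact h
    have hQ : (MulAction.orbit PQ0 r).ncard * Nat.card (pointStab PQ0 [r]) = 29160 := by
      rw [← card_PQ0]; exact card_pointStab_eq PQ0 [] r
    have hK : (MulAction.orbit K r).ncard * Nat.card (pointStab K [r]) = Nat.card K :=
      card_pointStab_eq K [] r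
    have hle2 : Nat.card (pointStab K [r]) ≤ Nat.card (pointStab PQ0 [r]) :=
      Subgroup.card_le_of_le fun y hy => by
        obtain ⟨h1, h2⟩ := mem_pointStab.1 hy
        exact mem_pointStab.2 ⟨⟨hH'M h1.1, h1.2⟩, h2⟩
    have h1 := Nat.mul_le_mul_right (Nat.card (pointStab PQ0 [r])) hbig
    have h2 := Nat.mul_le_mul hk3 hle2
    omega

end CfsgLib.McLRankThree
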