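import Cfsg.Agent.McLCover.Model
import Cfsg.Agent.McLRankThree.Data
import Cfsg.Agent.McLRankThree.Conjugates

/-! Words in the seven generators of the McLaughlin group acting on 275 points. -/

set_option autoImplicit false
set_option maxRecDepth 100000

namespace CfsgLib.McLRankThree

open CfsgLib.CosetEnum CfsgLib.Schur

/-- the points -/
abbrev Pt := Fin 275

/-- the permutations of the points -/
abbrev P := Equiv.Perm Pt

/-- the group -/
abbrev KK : Subgroup P := McLCover.K

/-- a point by its number -/
def ptM (i : ℕ) : Pt := ⟨i % 275, Nat.mod_lt _ (by omega)⟩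

theorem ptM_val {i : ℕ} (hi : i < 275) : ((ptM i : Pt) : ℕ) = i := Nat.mod_eq_of_lt hi

/-- the column of a letter -/
noncomputable def selCol (x : ℕ) : ℕ :=
  Nat.rec col0 (fun n _ => Nat.rec col1 (fun n _ => Nat.rec col2 (fun n _ => Nat.rec col3
    (fun n _ => Nat.rec col4 (fun n _ => Nat.rec col5 (fun _ _ => col6) n) n) n) n) n) x

/-- the image of a point under a letter -/
noncomputable def stepN (x i : ℕ) : ℕ := Nat.land (Nat.shiftRight (selCol x) (Nat.mul 9 i)) 511

/-- the image of a point under a word -/
noncomputable def actN (w : List ℕ) (i : ℕ) : ℕ :=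
  List.rec (motive := fun _ => ℕ) i (fun x _ r => stepN x r) w

theorem actN_cons (x : ℕ) (w : List ℕ) (i : ℕ) : actN (x :: w) i = stepN x (actN w i) := rfl

theorem actN_append (u v : List ℕ) (i : ℕ) : actN (u ++ v) i = actN u (actN v i) := by
  induction u with
  | nil => rfl
  | cons x u ih => rw [List.cons_append, actN_cons, actN_cons, ih]

theorem step_check : allBelow (fun i => allBelow (fun x =>
    stepN x i == PackedPerm.img McLCover.gFwd x i) 7) 275 = true := by decide +kernel

theorem step_eq {x i : ℕ} (hx : x < 7) (hi : i < 275) :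
    stepN x i = PackedPerm.img McLCover.gFwd x i :=
  beq_iff_eq.1 ((Model.allBelow_iff _ _).1 ((Model.allBelow_iff _ _).1 step_check i hi) x hx)

/-- all letters are generators -/
noncomputable def okW (w : List ℕ) : Bool := allK (fun x => Nat.blt x 7) w

theorem okW_iff {w : List ℕ} : okW w = true ↔ ∀ x ∈ w, x < 7 := by
  simp [okW, Model.allK_iff, Nat.blt, Nat.ble_eq]

theorem okW_append {u v : List ℕ} : okW (u ++ v) = true ↔ okW u = true ∧ okW v = true := by
  simp [okW_iff, or_imp, forall_and]

theorem okW_reverse {u : List ℕ} : okW u.reverse = true ↔ okW u = true := by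
  simp [okW_iff]

/-- the element of a word -/
noncomputable def el (w : List ℕ) : P := gword McLCover.gperm w

theorem el_nil : el [] = 1 := rfl

theorem el_cons (x : ℕ) (w : List ℕ) : el (x :: w) = McLCover.gperm x * el w := gword_cons _ _ _

theorem el_append (u v : List ℕ) : el (u ++ v) = el u * el v := by
  simp [el, gword, List.map_append, List.prod_append]

theorem el_val {w : List ℕ} (hw : okW w = true) (i : Pt) : ((el w i : Pt) : ℕ) = actN w i := by
  induction w with
  | nil => rfl
  | cons x w ih =>
    have hx : x < 7 := okW_iff.1 hw x List.mem_cons_self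
    have hw' : okW w = true := okW_iff.2 fun y hy => okW_iff.1 hw y (List.mem_cons_of_mem _ hy)
    rw [el_cons, Equiv.Perm.mul_apply, actN_cons, ← ih hw', step_eq hx (el w i).2,
      McLCover.gperm, PackedPerm.toPerm, dif_pos (show x < McLCover.gFwd.length by
        rw [McLCover.tables_ok.2]; exact hx)]
    rfl

theorem actN_lt {w : List ℕ} (hw : okW w = true) {i : ℕ} (hi : i < 275) : actN w i < 275 := by
  rw [← el_val hw ⟨i, hi⟩]; exact (el w ⟨i, hi⟩ : Pt).2

theorem el_ptM {w : List ℕ} (hw : okW w = true) {i : ℕ} (hi : i < 275) :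
    el w (ptM i) = ptM (actN w i) :=
  Fin.ext (by rw [el_val hw, ptM_val hi, ptM_val (actN_lt hw hi)])

theorem el_mem_KK {w : List ℕ} (hw : okW w = true) : el w ∈ KK :=
  gword_mem KK _ fun x hx => McLCover.gperm_mem (okW_iff.1 hw x hx)

theorem gperm_sq {x : ℕ} (hx : x < 7) : McLCover.gperm x * McLCover.gperm x = 1 :=
  McLCover.involution_of_mclRels _ McLCover.gperm_rels x hx

theorem el_reverse {w : List ℕ} (hw : okW w = true) : el w.reverse = (el w)⁻¹ := by
  induction w with
  | nil => simp [el_nil]
  | cons x w ih =>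
    have hx : x < 7 := okW_iff.1 hw x List.mem_cons_self
    have hw' : okW w = true := okW_iff.2 fun y hy => okW_iff.1 hw y (List.mem_cons_of_mem _ hy)
    rw [List.reverse_cons, el_append, el_cons, el_cons, el_nil, mul_one, mul_inv_rev, ih hw',
      inv_eq_of_mul_eq_one_right (gperm_sq hx)]

/-- two words agree at the base -/
noncomputable def eqB (u v : List ℕ) : Bool :=
  allK (fun b => actN u b == actN v b) McLCover.basePts

theorem el_eq_of_base {u v : List ℕ} (hu : okW u = true) (hv : okW v = true)
    (h : eqB u v = true) : el u = el v := by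
  simp only [eqB, Model.allK_iff, beq_iff_eq] at h
  have hb : McLCover.basePts.length = 5 := by decide +kernel
  refine inv_mul_eq_one.1 (McLCover.eq_one_of_base (mul_mem (inv_mem (el_mem_KK hu)) (el_mem_KK hv))
    fun j hj i hi => ?_)
  rw [Equiv.Perm.mul_apply, Equiv.Perm.inv_eq_iff_eq]
  refine Fin.ext ?_
  rw [el_val hv, el_val hu, hi]
  refine (h _ ?_).symm
  rw [List.getD_eq_getElem _ _ (by omega)]
  exact List.getElem_mem _

/-- a composition of the given words -/
def flat (g : List (List ℕ)) (ix : List ℕ) : List ℕ := ix.flatMap fun i => g.getD i []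

theorem ok_getD {g : List (List ℕ)} (hg : ∀ v ∈ g, okW v = true) (i : ℕ) :
    okW (g.getD i []) = true := by
  rcases lt_or_ge i g.length with hi | hi
  · rw [List.getD_eq_getElem _ _ hi]; exact hg _ (List.getElem_mem hi)
  · rw [List.getD_eq_default _ _ hi]; exact okW_iff.2 (by simp)

theorem ok_flat {g : List (List ℕ)} (hg : ∀ v ∈ g, okW v = true) (ix : List ℕ) :
    okW (flat g ix) = true := by
  induction ix with
  | nil => exact okW_iff.2 (by simp [flat])
  | cons i ix ih =>
    rw [flat, List.flatMap_cons]
    exact okW_append.2 ⟨ok_getD hg i, ih⟩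

theorem el_getD_mem {H : Subgroup P} {g : List (List ℕ)} (hg : ∀ w ∈ g, el w ∈ H) (i : ℕ) :
    el (g.getD i []) ∈ H := by
  rcases lt_or_ge i g.length with hi | hi
  · rw [List.getD_eq_getElem _ _ hi]; exact hg _ (List.getElem_mem hi)
  · rw [List.getD_eq_default _ _ hi]; exact one_mem H

theorem el_flat_mem {H : Subgroup P} {g : List (List ℕ)} (hg : ∀ w ∈ g, el w ∈ H) (ix : List ℕ) :
    el (flat g ix) ∈ H := by
  induction ix with
  | nil => exact one_mem H
  | cons i ix ih =>
    rw [flat, List.flatMap_cons, el_append]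
    exact mul_mem (el_getD_mem hg i) ih

/-- an entry of a packed table -/
noncomputable def slot (T bits k : ℕ) : ℕ :=
  Nat.land (Nat.shiftRight T (Nat.mul bits k)) (Nat.sub (Nat.pow 2 bits) 1)

end CfsgLib.McLRankThree
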